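import Cfsg.Agent.H215.Off
import Cfsg.Agent.Lib.Hyperfocal
import Cfsg.Agent.H39.FTMain
set_option linter.all false

-- part: H215/Baum
section
/-!
# The minimal failure: `D(Jt(S)) = 1`
-/

set_option autoImplicit false
set_option linter.unusedSectionVars false
set_option linter.unusedVariables false

open Cfsg

namespace Cfsg.Agent.H215.Baum

open Cfsg.Agent.H215.Fun Cfsg.Agent.H215.Act Cfsg.Agent.H215.Setup Cfsg.Agent.H215.Setup.Min
open Cfsg.Agent.H263.FF.Basic Cfsg.Agent.H215.RankOne Cfsg.Agent.H215.Off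

variable {G : Type*} [Group G] [Finite G] {p : ℕ} [hp : Fact p.Prime]
variable {S : Sylow p G} {M : Subgroup G} (m : Min p S M)

theorem card_sup_normal (A N : Subgroup G) [N.Normal] :
    Nat.card (A ⊔ N : Subgroup G) * Nat.card (A ⊓ N : Subgroup G) = Nat.card A * Nat.card N :=
  Cfsg.Agent.H264.CD.card_sup_mul_card_inf_of_mul (Subgroup.mul_normal A N)

include m

theorem map_mem {g : G} (hg : g ∉ M) : pp p G g ∉ M.map (pp p G) := by
  intro h
  apply hg
  have h1 : g ∈ (M.map (pp p G)).comap (pp p G) := h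
  rwa [comap_M m] at h1

/-- (c1) -/
theorem c1 {s : G} (hs : s ∈ (S : Subgroup G)) (hsQ : s ∉ pCore p G) {v : G} (hv : v ∈ V p G) (h : s * v = v * s) :
    v ∈ V p G ⊓ Subgroup.centralizer ((S : Subgroup G) : Set G) := by
  have hs1 : pp p G s ≠ 1 := by
    intro e
    apply hsQ
    apply m.CS_inf
    refine Subgroup.mem_inf.2 ⟨hs, ?_⟩
    rw [← ker_pp]; exact e
  have h1 := (r1 m).cent (pp p G s) ⟨s, hs, rfl⟩ hs1 (Md.mk _ hInv hv) ((Md.smul_eq_iff s _).2 h)
  rw [fx_map, fx_iff] at h1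
  exact h1

omit m in
theorem SC_inf (m : Min p S M) : (S : Subgroup G) ⊓ Subgroup.centralizer (V p G : Set G) = pCore p G :=
  le_antisymm m.CS_inf (le_inf QS QC)

/-- (c2) -/
theorem c2 : Nat.card (S : Subgroup G) * Nat.card (V p G ⊓ Subgroup.centralizer ((S : Subgroup G) : Set G) : Subgroup G) =
    Nat.card (V p G) * Nat.card (pCore p G) := by
  have h1 := (r1 m).card
  rw [fx_map, card_fx, card_W] at h1
  have h2 := card_map_mul (pp p G) (S : Subgroup G)
  rw [ker_pp, SC_inf m] at h2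
  rw [← h1, ← h2]; ring

/-- (c3) -/
theorem c3 {g : G} (hg : g ∉ M) {v : G} (hv : v ∈ V p G) :
    ∃ a ∈ V p G ⊓ Subgroup.centralizer ((S : Subgroup G) : Set G),
      ∃ b ∈ V p G ⊓ Subgroup.centralizer (cj g (S : Subgroup G) : Set G), v = a * b := by
  have h1 := (r1 m).sup (pp p G g) (map_mem m hg)
  have h2 : cj (pp p G g) ((S : Subgroup G).map (pp p G)) = (cj g (S : Subgroup G)).map (pp p G) := by
    ext x
    rw [mem_cj]
    constructor
    · rintro ⟨s, hs, e⟩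
      refine ⟨g * s * g⁻¹, mem_cj_of hs, ?_⟩
      rw [map_mul, map_mul, map_inv, e]; group
    · rintro ⟨y, hy, rfl⟩
      rw [SetLike.mem_coe, mem_cj] at hy
      exact ⟨_, hy, by rw [map_mul, map_mul, map_inv]⟩
  rw [h2, fx_map, fx_map] at h1
  have h3 : Md.mk (MonoidHom.id G) hInv hv ∈ fx (W p G) (S : Subgroup G) ⊔ fx (W p G) (cj g (S : Subgroup G)) := by
    rw [h1]; trivial
  obtain ⟨a, ha, b, hb, e⟩ := mem_sup h3
  refine ⟨a.val, fx_iff.1 ha, b.val, fx_iff.1 hb, ?_⟩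
  rw [← Md.val_add, e]; rfl

/-- (c4) -/
theorem c4 {g₁ : G} (hg₁ : g₁ ∉ M) {x : G} (hx : x ∉ M) : ∃ s ∈ (S : Subgroup G), ∃ k ∈ M, x = s * g₁ * k := by
  obtain ⟨_, ⟨s, hs, rfl⟩, _, ⟨k, hk, rfl⟩, e⟩ := (r1 m).cov _ (map_mem m hg₁) _ (map_mem m hx)
  refine ⟨s, hs, (s * g₁)⁻¹ * x, ?_, by group⟩
  have h1 : k⁻¹ * ((s * g₁)⁻¹ * x) ∈ (pp p G).ker := by
    rw [MonoidHom.mem_ker, map_mul, map_mul, e, map_inv, map_inv, map_mul]; group
  rw [ker_pp] at h1
  have h2 := mul_mem hk (m.CM h1)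
  rwa [mul_inv_cancel_left] at h2

/-- (c5) -/
theorem c5 {g₁ : G} (hg₁ : g₁ ∉ M) {s : G} (hs : s ∈ (S : Subgroup G)) (h : g₁⁻¹ * s * g₁ ∈ M) : s ∈ pCore p G := by
  have h1 := (r1 m).free _ (map_mem m hg₁) _ ⟨s, hs, rfl⟩ (by
    rw [← map_inv, ← map_mul, ← map_mul]; exact ⟨_, h, rfl⟩)
  apply m.CS_inf
  refine Subgroup.mem_inf.2 ⟨hs, ?_⟩
  rw [← ker_pp]; exact h1

section A

variable {A : Subgroup G} (hA : LA (S : Subgroup G) A) (hAQ : ¬ A ≤ pCore p G)
include hA hAQ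

theorem VA_iff {v : G} (hv : v ∈ V p G) : v ∈ A ↔ v ∈ V p G ⊓ Subgroup.centralizer ((S : Subgroup G) : Set G) := by
  constructor
  · intro h
    obtain ⟨a, ha, haQ⟩ := Set.not_subset.1 hAQ
    exact c1 m (hA.1 ha) haQ hv (hA.2.1 a ha v h)
  · intro h
    apply hA.mem (QS (V_le hv))
    intro a ha
    exact Subgroup.mem_centralizer_iff.1 (Subgroup.mem_inf.1 h).2 a (hA.1 ha)

theorem VA_cent : V p G ⊓ Subgroup.centralizer (A : Set G) = V p G ⊓ Subgroup.centralizer ((S : Subgroup G) : Set G) := by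
  apply le_antisymm
  · rintro v ⟨hv, hv'⟩
    obtain ⟨a, ha, haQ⟩ := Set.not_subset.1 hAQ
    exact c1 m (hA.1 ha) haQ hv (Subgroup.mem_centralizer_iff.1 hv' a ha)
  · exact inf_le_inf_left _ (Subgroup.centralizer_le hA.1)

/-- `AQ = S`, and the cardinalities -/
theorem AQ : A ⊔ pCore p G = S ∧ Nat.card A * Nat.card (pCore p G) = Nat.card (S : Subgroup G) * Nat.card (A ⊓ pCore p G : Subgroup G) ∧
    Nat.card A * Nat.card (V p G ⊓ Subgroup.centralizer ((S : Subgroup G) : Set G) : Subgroup G) =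
      Nat.card (A ⊓ pCore p G : Subgroup G) * Nat.card (V p G) := by
  have _ := Qn (p := p) (G := G)
  have h1 := LA_off (Y := A ⊓ pCore p G) hA (V_comm (p := p)) (V_le.trans QS) inf_le_left
  have h2 : V p G ⊓ Subgroup.centralizer ((A ⊓ pCore p G : Subgroup G) : Set G) = V p G := by
    rw [inf_eq_left]
    intro v hv
    rw [Subgroup.mem_centralizer_iff]
    rintro x ⟨-, hx⟩
    exact V_Q hx hv
  rw [h2, VA_cent m hA hAQ] at h1
  have h3 := card_sup_normal A (pCore p G)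
  have h4 := c2 m
  have h5 : A ⊔ pCore p G ≤ S := sup_le hA.1 QS
  set cA := Nat.card A
  set cQ := Nat.card (pCore p G)
  set cS := Nat.card (S : Subgroup G)
  set c0 := Nat.card (A ⊓ pCore p G : Subgroup G)
  set cV := Nat.card (V p G)
  set cVS := Nat.card (V p G ⊓ Subgroup.centralizer ((S : Subgroup G) : Set G) : Subgroup G)
  set cAQ := Nat.card (A ⊔ pCore p G : Subgroup G)
  have p0 : 0 < c0 := Nat.card_pos
  have p1 : 0 < cVS := Nat.card_pos
  have p2 : 0 < cQ := Nat.card_pos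
  have h6 : cS ≤ cAQ := by
    have h7 : cS * (cVS * c0) ≤ cAQ * (cVS * c0) := by
      calc cS * (cVS * c0) = (cS * cVS) * c0 := by ring
        _ = (cV * cQ) * c0 := by rw [h4]
        _ = (c0 * cV) * cQ := by ring
        _ ≤ (cA * cVS) * cQ := Nat.mul_le_mul_right _ h1
        _ = (cA * cQ) * cVS := by ring
        _ = (cAQ * c0) * cVS := by rw [h3]
        _ = _ := by ring
    exact Nat.le_of_mul_le_mul_right h7 (Nat.mul_pos p1 p0)
  have h7 : A ⊔ pCore p G = S := Subgroup.eq_of_le_of_card_ge h5 h6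
  have h8 : cAQ = cS := by
    show Nat.card (A ⊔ pCore p G : Subgroup G) = _
    rw [h7]
  rw [h8] at h3
  refine ⟨h7, h3.symm, ?_⟩
  have h9 : (cA * cVS) * cQ = (c0 * cV) * cQ := by
    calc (cA * cVS) * cQ = (cA * cQ) * cVS := by ring
      _ = (cS * c0) * cVS := by rw [h3]
      _ = (cS * cVS) * c0 := by ring
      _ = (cV * cQ) * c0 := by rw [h4]
      _ = _ := by ring
  exact Nat.eq_of_mul_eq_mul_right p2 h9

/-- `(A ∩ Q) V` -/
def Af (p : ℕ) [Fact p.Prime] (A : Subgroup G) : Subgroup G := (A ⊓ pCore p G) ⊔ V p G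

omit m hA hAQ in
theorem mem_Af {x : G} : x ∈ Af p A ↔ ∃ a ∈ A ⊓ pCore p G, ∃ v ∈ V p G, a * v = x := by
  have _ := V_normal (p := p) (G := G)
  exact Subgroup.mem_sup_of_normal_right

omit m hA hAQ in
theorem Af_le : Af p A ≤ pCore p G := sup_le inf_le_right V_le

theorem Af_LA : LA (S : Subgroup G) (Af p A) := by
  have _ := V_normal (p := p) (G := G)
  obtain ⟨-, -, h1⟩ := AQ m hA hAQ
  have h2 := card_sup_normal (A ⊓ pCore p G) (V p G)
  have h3 : A ⊓ pCore p G ⊓ V p G = V p G ⊓ Subgroup.centralizer ((S : Subgroup G) : Set G) := by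
    ext v
    constructor
    · rintro ⟨⟨hv, -⟩, hv'⟩
      exact (VA_iff m hA hAQ hv').1 hv
    · rintro ⟨hv, hv'⟩
      exact ⟨⟨(VA_iff m hA hAQ hv).2 ⟨hv, hv'⟩, V_le hv⟩, hv⟩
  rw [h3] at h2
  have h4 : Nat.card (Af p A) = Nat.card A :=
    Nat.eq_of_mul_eq_mul_right (Nat.card_pos) (h2.trans h1.symm)
  refine ⟨Af_le.trans QS, ?_, fun B hB hBa => by rw [h4]; exact hA.2.2 B hB hBa⟩
  intro x hx y hy
  obtain ⟨a, ha, v, hv, rfl⟩ := mem_Af.1 hx
  obtain ⟨b, hb, w, hw, rfl⟩ := mem_Af.1 hy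
  have e1 : a * b = b * a := hA.2.1 a ha.1 b hb.1
  have e2 : b * v = v * b := V_Q hb.2 hv
  have e3 : a * w = w * a := V_Q ha.2 hw
  have e4 : v * w = w * v := V_comm v hv w hw
  calc a * v * (b * w) = a * (v * b) * w := by group
    _ = a * (b * v) * w := by rw [e2]
    _ = (a * b) * (v * w) := by group
    _ = (b * a) * (w * v) := by rw [e1, e4]
    _ = b * (a * w) * v := by group
    _ = b * (w * a) * v := by rw [e3]
    _ = b * w * (a * v) := by group

theorem Af_conj (g : G) : LA (S : Subgroup G) (cj g (Af p A)) := by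
  have h1 := Af_LA m hA hAQ
  refine ⟨?_, ?_, fun B hB hBa => by rw [card_cj]; exact h1.2.2 B hB hBa⟩
  · intro x hx
    rw [mem_cj] at hx
    apply QS
    have h2 := (Qn (p := p) (G := G)).conj_mem _ (Af_le hx) g
    rwa [show g * (g⁻¹ * x * g) * g⁻¹ = x by group] at h2
  · intro x hx y hy
    rw [mem_cj] at hx hy
    have h2 := h1.2.1 _ hx _ hy
    calc x * y = g * ((g⁻¹ * x * g) * (g⁻¹ * y * g)) * g⁻¹ := by group
      _ = g * ((g⁻¹ * y * g) * (g⁻¹ * x * g)) * g⁻¹ := by rw [h2]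
      _ = _ := by group

theorem exists_conj_notMem {g : G} (hg : g ∉ M) : ∃ a ∈ A, g * a * g⁻¹ ∉ M := by
  obtain ⟨a, ha, haQ⟩ := Set.not_subset.1 hAQ
  refine ⟨a, ha, fun h => haQ ?_⟩
  apply c5 m (g₁ := g⁻¹) (fun h => hg ((inv_mem_iff).1 h)) (hA.1 ha)
  rwa [inv_inv]

/-- `⟨S, A^g⟩ = G` -/
theorem eq_top_of_le {H : Subgroup G} (hSH : (S : Subgroup G) ≤ H) {g : G} (hg : g ∉ M) (h : cj g A ≤ H) : H = ⊤ := by
  by_contra hne
  obtain ⟨a, ha, haM⟩ := exists_conj_notMem m hA hAQ hg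
  exact haM (m.max H hSH hne (h (mem_cj_of ha)))

theorem ZJV_normal : (Zs (J (S : Subgroup G)) ⊔ V p G).Normal := by
  have hVn := V_normal (p := p) (G := G)
  have hV : ∀ x : G, cj x (V p G) = V p G := fun x => by
    rw [cj_eq_iff_mem_normalizer, Subgroup.normalizer_eq_top_iff.2 hVn]; trivial
  obtain ⟨g, hg⟩ := m.exists_notMem
  rw [← Subgroup.normalizer_eq_top_iff]
  apply eq_top_of_le m hA hAQ _ hg
  · intro x hx
    rw [mem_cj] at hx
    rw [← cj_eq_iff_mem_normalizer]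
    apply cj_eq_of_le
    rw [cj_sup, hV]
    refine sup_le ?_ le_sup_right
    rw [cj_le_iff]
    intro z hz
    have h1 := ZJ_le_LA (Af_conj m hA hAQ g) hz
    rw [mem_cj] at h1
    obtain ⟨a, ha, v, hv, e⟩ := mem_Af.1 h1
    have e1 : (g⁻¹ * x * g) * a = a * (g⁻¹ * x * g) := hA.2.1 _ hx _ ha.1
    have hw : g * v * g⁻¹ ∈ V p G := hVn.conj_mem v hv g
    have hw' : x * (g * v * g⁻¹) * x⁻¹ ∈ V p G := hVn.conj_mem _ hw x
    have e2 : z = g * a * g⁻¹ * (g * v * g⁻¹) := by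
      calc z = g * (g⁻¹ * z * g) * g⁻¹ := by group
        _ = g * (a * v) * g⁻¹ := by rw [e]
        _ = _ := by group
    have e4 : x * (g * a * g⁻¹) = (g * a * g⁻¹) * x := by
      calc x * (g * a * g⁻¹) = g * ((g⁻¹ * x * g) * a) * g⁻¹ := by group
        _ = g * (a * (g⁻¹ * x * g)) * g⁻¹ := by rw [e1]
        _ = _ := by group
    have e3 : x * z * x⁻¹ = z * ((g * v * g⁻¹)⁻¹ * (x * (g * v * g⁻¹) * x⁻¹)) := by
      rw [e2]
      calc x * (g * a * g⁻¹ * (g * v * g⁻¹)) * x⁻¹ = (x * (g * a * g⁻¹)) * (g * v * g⁻¹) * x⁻¹ := by group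
        _ = ((g * a * g⁻¹) * x) * (g * v * g⁻¹) * x⁻¹ := by rw [e4]
        _ = _ := by group
    rw [e3]
    exact mul_mem (Subgroup.mem_sup_left hz) (Subgroup.mem_sup_right (mul_mem (inv_mem hw) hw'))
  · intro s hs
    have h1 : s ∈ Subgroup.normalizer (Zs (J (S : Subgroup G)) : Set G) :=
      normalizer_le_Zs (normalizer_le_J (Subgroup.le_normalizer hs))
    rw [← cj_eq_iff_mem_normalizer, cj_sup, hV, cj_eq_iff_mem_normalizer.2 h1]

/-- `Jt(S) ∩ Q` is normal -/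
theorem JtQ_normal : (Jt (S : Subgroup G) ⊓ pCore p G).Normal := by
  have h1 := ZJV_normal m hA hAQ
  have h2 := Qn (p := p) (G := G)
  have h3 : Jt (S : Subgroup G) ⊓ pCore p G =
      pCore p G ⊓ Subgroup.centralizer ((Zs (J (S : Subgroup G)) ⊔ V p G : Subgroup G) : Set G) := by
    rw [Cfsg.Agent.H264.CD.centralizer_sup]
    apply le_antisymm
    · rintro x ⟨hx, hxQ⟩
      exact ⟨hxQ, hx.2, QC hxQ⟩
    · rintro x ⟨hxQ, hx, -⟩
      exact ⟨⟨QS hxQ, hx⟩, hxQ⟩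
  rw [h3]
  infer_instance

theorem V_le_J : V p G ≤ J (S : Subgroup G) := le_sup_right.trans (le_J (Af_LA m hA hAQ))

/-- a centrally large subgroup of `Jt(S)` inside `Q` -/
theorem exists_CL_Q : ∃ R, CL (Jt (S : Subgroup G)) R ∧ R ≤ pCore p G := by
  have hVn := V_normal (p := p) (G := G)
  have hQn := Qn (p := p) (G := G)
  obtain ⟨R, hR⟩ := exists_CL (Jt (S : Subgroup G))
  by_cases hRQ : R ≤ pCore p G
  · exact ⟨R, hR, hRQ⟩
  have hRS : R ≤ S := hR.1.trans Jt_le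
  have hVJt : V p G ≤ Jt (S : Subgroup G) := (V_le_J m hA hAQ).trans J_le_Jt
  set VS := V p G ⊓ Subgroup.centralizer ((S : Subgroup G) : Set G) with hVS
  obtain ⟨r, hr, hrQ⟩ := Set.not_subset.1 hRQ
  -- `Z(R) ∩ V = C_V(S)`
  have hZV : Zs R ⊓ V p G = VS := by
    ext v
    constructor
    · rintro ⟨hv, hv'⟩
      exact c1 m (hRS hr) hrQ hv' ((mem_Zs.1 hv).2 r hr)
    · rintro ⟨hv, hv'⟩
      refine ⟨?_, hv⟩
      have hc : ∀ y ∈ R, y * v = v * y := fun y hy => Subgroup.mem_centralizer_iff.1 hv' y (hRS hy)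
      refine mem_Zs.2 ?_
      refine ⟨hR.cent (Subgroup.mem_inf.2 ⟨hVJt hv, ?_⟩), hc⟩
      rw [Subgroup.mem_centralizer_iff]; exact hc
  -- the new subgroup
  set Rf := (R ⊓ pCore p G) ⊔ V p G with hRf
  set Zf := (Zs R ⊓ pCore p G) ⊔ V p G with hZf
  have hRfJ : Rf ≤ Jt (S : Subgroup G) := sup_le (inf_le_left.trans hR.1) hVJt
  have hZfR : Zf ≤ Zs Rf := by
    have hVc : ∀ y ∈ Rf, ∀ v ∈ V p G, y * v = v * y := fun y hy v hv =>
      V_Q ((sup_le inf_le_right V_le : Rf ≤ pCore p G) hy) hv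
    apply sup_le
    · rintro z ⟨hz', hzQ⟩
      have hz := mem_Zs.1 hz'
      rw [mem_Zs]
      refine ⟨Subgroup.mem_sup_left ⟨hz.1, hzQ⟩, ?_⟩
      intro y hy
      obtain ⟨a, ha, v, hv, rfl⟩ := Subgroup.mem_sup_of_normal_right.1 hy
      have e1 := hz.2 a ha.1
      have e2 : z * v = v * z := V_Q hzQ hv
      calc a * v * z = a * (z * v) := by rw [e2]; group
        _ = (a * z) * v := by group
        _ = z * (a * v) := by rw [e1]; group
    · intro v hv
      rw [mem_Zs]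
      exact ⟨Subgroup.mem_sup_right hv, fun y hy => hVc y hy v hv⟩
  have k1 := card_sup_normal (R ⊓ pCore p G) (V p G)
  have k2 := card_sup_normal (Zs R ⊓ pCore p G) (V p G)
  have e1 : Zs R ⊓ pCore p G ⊓ V p G = VS := by
    rw [inf_assoc, inf_eq_right.2 (V_le (p := p) (G := G)), hZV]
  rw [e1] at k2
  have e2 : R ⊓ pCore p G ⊓ V p G = R ⊓ V p G := by
    rw [inf_assoc, inf_eq_right.2 (V_le (p := p) (G := G))]
  rw [e2] at k1
  have k3 := c2 m
  have k4 := card_sup_normal R (pCore p G)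
  have k5 := card_sup_normal (Zs R) (pCore p G)
  have k6 : Nat.card (R ⊔ pCore p G : Subgroup G) ≤ Nat.card (S : Subgroup G) := Subgroup.card_le_of_le (sup_le hRS QS)
  have k7 : Nat.card (Zs R ⊔ pCore p G : Subgroup G) ≤ Nat.card (S : Subgroup G) :=
    Subgroup.card_le_of_le (sup_le (Zs_le.trans hRS) QS)
  have hgoal : fv R ≤ fv Rf := by
    have h9 : Nat.card R * Nat.card (Zs R) ≤ Nat.card Rf * Nat.card Zf := by
      have q1 : 0 < Nat.card VS := Nat.card_pos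
      have q2 : 0 < Nat.card (pCore p G) := Nat.card_pos
      -- `|R| |Q| ≤ |S| |R ∩ Q|`, `|S| |VS| = |V| |Q|`
      have l1 : Nat.card R * Nat.card VS ≤ Nat.card (R ⊓ pCore p G : Subgroup G) * Nat.card (V p G) := by
        refine Nat.le_of_mul_le_mul_right ?_ q2
        calc Nat.card R * Nat.card VS * Nat.card (pCore p G) = (Nat.card R * Nat.card (pCore p G)) * Nat.card VS := by ring
          _ = (Nat.card (R ⊔ pCore p G : Subgroup G) * Nat.card (R ⊓ pCore p G : Subgroup G)) * Nat.card VS := by rw [k4]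
          _ ≤ (Nat.card (S : Subgroup G) * Nat.card (R ⊓ pCore p G : Subgroup G)) * Nat.card VS :=
            Nat.mul_le_mul_right _ (Nat.mul_le_mul_right _ k6)
          _ = (Nat.card (S : Subgroup G) * Nat.card VS) * Nat.card (R ⊓ pCore p G : Subgroup G) := by ring
          _ = (Nat.card (V p G) * Nat.card (pCore p G)) * Nat.card (R ⊓ pCore p G : Subgroup G) := by rw [k3]
          _ = _ := by ring
      have l2 : Nat.card (Zs R) * Nat.card VS ≤ Nat.card (Zs R ⊓ pCore p G : Subgroup G) * Nat.card (V p G) := by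
        refine Nat.le_of_mul_le_mul_right ?_ q2
        calc Nat.card (Zs R) * Nat.card VS * Nat.card (pCore p G)
            = (Nat.card (Zs R) * Nat.card (pCore p G)) * Nat.card VS := by ring
          _ = (Nat.card (Zs R ⊔ pCore p G : Subgroup G) * Nat.card (Zs R ⊓ pCore p G : Subgroup G)) * Nat.card VS := by rw [k5]
          _ ≤ (Nat.card (S : Subgroup G) * Nat.card (Zs R ⊓ pCore p G : Subgroup G)) * Nat.card VS :=
            Nat.mul_le_mul_right _ (Nat.mul_le_mul_right _ k7)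
          _ = (Nat.card (S : Subgroup G) * Nat.card VS) * Nat.card (Zs R ⊓ pCore p G : Subgroup G) := by ring
          _ = (Nat.card (V p G) * Nat.card (pCore p G)) * Nat.card (Zs R ⊓ pCore p G : Subgroup G) := by rw [k3]
          _ = _ := by ring
      by_cases hZQ : Zs R ≤ pCore p G
      · -- `|Zf| |VS| = |Z(R)| |V|`, `|Rf| ≥ |R ∩ Q|`
        have e3 : Zs R ⊓ pCore p G = Zs R := inf_eq_left.2 hZQ
        rw [e3] at k2
        have l3 : Nat.card (R ⊓ pCore p G : Subgroup G) ≤ Nat.card Rf := Subgroup.card_le_of_le le_sup_left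
        refine Nat.le_of_mul_le_mul_right ?_ q1
        calc Nat.card R * Nat.card (Zs R) * Nat.card VS = (Nat.card R * Nat.card VS) * Nat.card (Zs R) := by ring
          _ ≤ (Nat.card (R ⊓ pCore p G : Subgroup G) * Nat.card (V p G)) * Nat.card (Zs R) := Nat.mul_le_mul_right _ l1
          _ = Nat.card (R ⊓ pCore p G : Subgroup G) * (Nat.card (Zs R) * Nat.card (V p G)) := by ring
          _ ≤ Nat.card Rf * (Nat.card (Zs R) * Nat.card (V p G)) := Nat.mul_le_mul_right _ l3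
          _ = Nat.card Rf * (Nat.card Zf * Nat.card VS) := by rw [hZf, e3, k2]
          _ = _ := by ring
      · obtain ⟨z, hz, hzQ⟩ := Set.not_subset.1 hZQ
        have e3 : R ⊓ V p G ≤ VS := by
          rintro v ⟨hv, hv'⟩
          exact c1 m (hRS (Zs_le hz)) hzQ hv' ((mem_Zs.1 hz).2 v hv).symm
        have l3 := Subgroup.card_le_of_le e3
        have l4 : Nat.card R ≤ Nat.card Rf := by
          refine Nat.le_of_mul_le_mul_right ?_ q1
          calc Nat.card R * Nat.card VS ≤ Nat.card (R ⊓ pCore p G : Subgroup G) * Nat.card (V p G) := l1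
            _ = Nat.card Rf * Nat.card (R ⊓ V p G : Subgroup G) := k1.symm
            _ ≤ Nat.card Rf * Nat.card VS := Nat.mul_le_mul_left _ l3
        have l5 : Nat.card (Zs R) ≤ Nat.card Zf := by
          refine Nat.le_of_mul_le_mul_right ?_ q1
          calc Nat.card (Zs R) * Nat.card VS ≤ Nat.card (Zs R ⊓ pCore p G : Subgroup G) * Nat.card (V p G) := l2
            _ = Nat.card Zf * Nat.card VS := k2.symm
        exact Nat.mul_le_mul l4 l5
    rw [fv, fv]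
    exact h9.trans (Nat.mul_le_mul_left _ (Subgroup.card_le_of_le hZfR))
  exact ⟨Rf, CL_of_fv hR hRfJ hgoal, sup_le inf_le_right V_le⟩

/-- **`D(Jt(S)) = 1`** -/
theorem D_eq_bot : D (Jt (S : Subgroup G)) = ⊥ := by
  by_contra hD
  obtain ⟨R, hR, hRQ⟩ := exists_CL_Q m hA hAQ
  obtain ⟨R', hR'R, hR'⟩ := exists_MCL_le hR
  have h1 : MCL (Jt (S : Subgroup G) ⊓ pCore p G) R' := by
    refine ⟨⟨le_inf hR'.1.1 (hR'R.trans hRQ), fun B hB => hR'.1.2 B (hB.trans inf_le_left)⟩, ?_⟩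
    intro B hB hBc
    apply hR'.2 B hB
    exact CL_of_fv hR'.1 (hB.trans hR'.1.1) (hBc.2 R' (le_inf hR'.1.1 (hR'R.trans hRQ)))
  have h2 : D (Jt (S : Subgroup G)) = D (Jt (S : Subgroup G) ⊓ pCore p G) := by rw [D_eq hR', D_eq h1]
  apply m.Kn
  rw [K, if_neg hD, h2]
  exact normal_of (JtQ_normal m hA hAQ) normalizer_le_D

end A

end Cfsg.Agent.H215.Baum
end

-- part: H215/Count
section
/-!
# The minimal failure: `C_Q(A ∩ A^g) = (A ∩ Q)(A^g ∩ Q)`
-/

set_option autoImplicit false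
set_option linter.unusedSectionVars false
set_option linter.unusedVariables false

open Cfsg

namespace Cfsg.Agent.H215.Count

open Cfsg.Agent.H215.Fun Cfsg.Agent.H215.Act Cfsg.Agent.H215.Setup Cfsg.Agent.H215.Setup.Min
open Cfsg.Agent.H263.FF.Basic Cfsg.Agent.H215.RankOne Cfsg.Agent.H215.Off Cfsg.Agent.H215.Baum
open scoped Pointwise

variable {G : Type*} [Group G] [Finite G] {p : ℕ} [hp : Fact p.Prime]
variable {S : Sylow p G} {M : Subgroup G} (m : Min p S M)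
variable {A : Subgroup G} (hA : LA (S : Subgroup G) A) (hAQ : ¬ A ≤ pCore p G) {g : G} (hg : g ∉ M)
include m hA hAQ hg

theorem I_le : A ⊓ cj g A ≤ pCore p G := by
  intro x hxx
  have hx := (Subgroup.mem_inf.1 hxx).1
  have hx' := mem_cj.1 (Subgroup.mem_inf.1 hxx).2
  exact c5 m hg (hA.1 hx) (m.SM (hA.1 hx'))

theorem split {v : G} (hv : v ∈ V p G) : ∃ a ∈ A ⊓ pCore p G, ∃ b ∈ cj g A ⊓ pCore p G, a ∈ V p G ∧ b ∈ V p G ∧ v = a * b := by
  obtain ⟨a, ha, b, hb, e⟩ := c3 m hg hv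
  refine ⟨a, Subgroup.mem_inf.2 ⟨(VA_iff m hA hAQ ha.1).2 ha, V_le ha.1⟩, b, Subgroup.mem_inf.2 ⟨?_, V_le hb.1⟩, ha.1, hb.1, e⟩
  rw [mem_cj]
  have h1 : g⁻¹ * b * g ∈ V p G := by
    have := V_normal.conj_mem b hb.1 g⁻¹
    rwa [inv_inv] at this
  rw [VA_iff m hA hAQ h1]
  refine Subgroup.mem_inf.2 ⟨h1, ?_⟩
  rw [Subgroup.mem_centralizer_iff]
  intro s hs
  have h2 := Subgroup.mem_centralizer_iff.1 hb.2 _ (mem_cj_of (g := g) hs)
  calc s * (g⁻¹ * b * g) = g⁻¹ * ((g * s * g⁻¹) * b) * g := by group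
    _ = g⁻¹ * (b * (g * s * g⁻¹)) * g := by rw [h2]
    _ = _ := by group

omit m hA hAQ hg in
theorem mem_cj_Af {x : G} (hx : x ∈ cj g (Af p A)) : ∃ b ∈ cj g A ⊓ pCore p G, ∃ w ∈ V p G, x = b * w := by
  rw [mem_cj] at hx
  obtain ⟨b, hb, w, hw, e⟩ := mem_Af.1 hx
  refine ⟨g * b * g⁻¹, Subgroup.mem_inf.2 ⟨mem_cj_of (Subgroup.mem_inf.1 hb).1, Qn.conj_mem b (Subgroup.mem_inf.1 hb).2 g⟩, g * w * g⁻¹, V_normal.conj_mem w hw g, ?_⟩
  calc x = g * (g⁻¹ * x * g) * g⁻¹ := by group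
    _ = g * (b * w) * g⁻¹ := by rw [e]
    _ = _ := by group

theorem inf_le : Af p A ⊓ cj g (Af p A) ≤ (A ⊓ cj g A) ⊔ V p G := by
  intro x hxx
  have hx := (Subgroup.mem_inf.1 hxx).1
  have hx' := (Subgroup.mem_inf.1 hxx).2
  obtain ⟨a, ha, v, hv, rfl⟩ := mem_Af.1 hx
  obtain ⟨b, hb, w, hw, e⟩ := mem_cj_Af hx'
  obtain ⟨l, hl, k, hk, hlV, hkV, e2⟩ := split m hA hAQ hg (mul_mem hw (inv_mem hv))
  -- `a l⁻¹ = b k`
  have e3 : a * l⁻¹ = b * k := by
    have h1 : a = b * (w * v⁻¹) := by rw [← mul_assoc, ← e]; group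
    rw [h1, e2, V_comm l hlV k hkV]; group
  have h1 : a * l⁻¹ ∈ A ⊓ cj g A := Subgroup.mem_inf.2
    ⟨A.mul_mem (Subgroup.mem_inf.1 ha).1 (A.inv_mem (Subgroup.mem_inf.1 hl).1),
      by rw [e3]; exact (cj g A).mul_mem (Subgroup.mem_inf.1 hb).1 (Subgroup.mem_inf.1 hk).1⟩
  have e4 : a * v = a * l⁻¹ * (l * v) := by group
  rw [e4]
  exact mul_mem (Subgroup.mem_sup_left h1) (Subgroup.mem_sup_right (mul_mem hlV hv))

theorem Q1_le : pCore p G ⊓ Subgroup.centralizer ((A ⊓ cj g A : Subgroup G) : Set G) ≤ Jt (S : Subgroup G) := by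
  have hVn := V_normal (p := p) (G := G)
  rintro x ⟨hxQ, hx⟩
  rw [mem_Jt]
  refine ⟨QS hxQ, fun z hz => ?_⟩
  have h1 : z ∈ (A ⊓ cj g A) ⊔ V p G := inf_le m hA hAQ hg ⟨ZJ_le_LA (Af_LA m hA hAQ) hz, ZJ_le_LA (Af_conj m hA hAQ g) hz⟩
  obtain ⟨i, hi, v, hv, rfl⟩ := Subgroup.mem_sup_of_normal_right.1 h1
  have e1 : i * x = x * i := Subgroup.mem_centralizer_iff.1 hx i hi
  have e2 : x * v = v * x := V_Q hxQ hv
  calc i * v * x = i * (x * v) := by rw [e2]; group
    _ = (i * x) * v := by group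
    _ = x * (i * v) := by rw [e1]; group

/-- **`C_Q(A ∩ A^g) = (A ∩ Q)(A^g ∩ Q)`** -/
theorem mem_Q1 {u : G} (hu : u ∈ pCore p G) (hu' : ∀ i ∈ A ⊓ cj g A, i * u = u * i) :
    ∃ a ∈ A ⊓ pCore p G, ∃ b ∈ cj g A ⊓ pCore p G, u = a * b := by
  have hVn := V_normal (p := p) (G := G)
  set I := A ⊓ cj g A with hI
  set Q₁ := pCore p G ⊓ Subgroup.centralizer (I : Set G) with hQ₁
  have hIQ : I ≤ pCore p G := I_le m hA hAQ hg
  have hD := D_eq_bot m hA hAQ
  have h1 : fv Q₁ ≤ Nat.card A * Nat.card A :=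
    fv_le_of_D hD (fun B hB hBa => hA.2.2 B (hB.trans Jt_le) hBa) (Q1_le m hA hAQ hg)
  have hZ : I ⊔ V p G ≤ Zs Q₁ := by
    apply sup_le
    · intro i hi
      rw [mem_Zs]
      refine ⟨Subgroup.mem_inf.2 ⟨hIQ hi, ?_⟩, ?_⟩
      · rw [Subgroup.mem_centralizer_iff]
        exact fun j hj => hA.2.1 j hj.1 i hi.1
      · exact fun y hy => (Subgroup.mem_centralizer_iff.1 (Subgroup.mem_inf.1 hy).2 i hi).symm
    · intro v hv
      rw [mem_Zs]
      refine ⟨Subgroup.mem_inf.2 ⟨V_le hv, ?_⟩, ?_⟩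
      · rw [Subgroup.mem_centralizer_iff]
        exact fun j hj => V_Q (hIQ hj) hv
      · exact fun y hy => V_Q (Subgroup.mem_inf.1 hy).1 hv
  have h2 := Cfsg.Agent.H264.CD.card_mul_card (Af p A) (cj g (Af p A))
  rw [card_cj, (Af_LA m hA hAQ).card_eq hA] at h2
  have hAfI : ∀ x ∈ Af p A, ∀ i ∈ I, i * x = x * i := by
    intro x hx i hi
    obtain ⟨a, ha, v, hv, rfl⟩ := mem_Af.1 hx
    have e1 : i * a = a * i := hA.2.1 i hi.1 a ha.1
    have e2 : i * v = v * i := V_Q (hIQ hi) hv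
    calc i * (a * v) = (i * a) * v := by group
      _ = a * (i * v) := by rw [e1]; group
      _ = a * v * i := by rw [e2]; group
  have hAfI' : ∀ x ∈ cj g (Af p A), ∀ i ∈ I, i * x = x * i := by
    intro x hx i hi
    obtain ⟨b, hb, v, hv, rfl⟩ := mem_cj_Af hx
    have hi2 := mem_cj.1 (Subgroup.mem_inf.1 hi).2
    have hb1 := mem_cj.1 (Subgroup.mem_inf.1 hb).1
    have e0 := hA.2.1 _ hi2 _ hb1
    have e1 : i * b = b * i := by
      calc i * b = g * ((g⁻¹ * i * g) * (g⁻¹ * b * g)) * g⁻¹ := by group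
        _ = g * ((g⁻¹ * b * g) * (g⁻¹ * i * g)) * g⁻¹ := by rw [e0]
        _ = _ := by group
    have e2 : i * v = v * i := V_Q (hIQ hi) hv
    calc i * (b * v) = (i * b) * v := by group
      _ = b * (i * v) := by rw [e1]; group
      _ = b * v * i := by rw [e2]; group
  have hsub : (Af p A : Set G) * (cj g (Af p A) : Set G) ⊆ (Q₁ : Set G) := by
    rintro _ ⟨x, hx, y, hy, rfl⟩
    have hxQ₁ : x ∈ Q₁ := Subgroup.mem_inf.2 ⟨Af_le hx, by
      rw [Subgroup.mem_centralizer_iff]; exact hAfI x hx⟩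
    have hyQ : y ∈ pCore p G := by
      have h3 := hy
      rw [SetLike.mem_coe, mem_cj] at h3
      have h4 := (Qn (p := p) (G := G)).conj_mem _ (Af_le h3) g
      rwa [show g * (g⁻¹ * y * g) * g⁻¹ = y by group] at h4
    have hyQ₁ : y ∈ Q₁ := Subgroup.mem_inf.2 ⟨hyQ, by
      rw [Subgroup.mem_centralizer_iff]; exact hAfI' y hy⟩
    exact mul_mem hxQ₁ hyQ₁
  have h3 : Nat.card Q₁ ≤ Nat.card ((Af p A : Set G) * (cj g (Af p A) : Set G) : Set G) := by
    have h4 : 0 < Nat.card (Af p A ⊓ cj g (Af p A) : Subgroup G) := Nat.card_pos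
    refine Nat.le_of_mul_le_mul_right ?_ h4
    rw [h2]
    refine le_trans ?_ h1
    rw [fv]
    exact Nat.mul_le_mul_left _ (Subgroup.card_le_of_le ((inf_le m hA hAQ hg).trans hZ))
  have heq : (Af p A : Set G) * (cj g (Af p A) : Set G) = (Q₁ : Set G) := by
    refine Set.eq_of_subset_of_ncard_le hsub ?_ (Set.toFinite _)
    rw [← Nat.card_coe_set_eq, ← Nat.card_coe_set_eq]
    exact h3
  have huQ₁ : u ∈ (Q₁ : Set G) := Subgroup.mem_inf.2 ⟨hu, by rw [Subgroup.mem_centralizer_iff]; exact hu'⟩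
  rw [← heq] at huQ₁
  obtain ⟨x, hx, y, hy, rfl⟩ := huQ₁
  obtain ⟨a, ha, v, hv, rfl⟩ := mem_Af.1 hx
  obtain ⟨b, hb, w, hw, rfl⟩ := mem_cj_Af hy
  obtain ⟨l, hl, k, hk, hlV, hkV, e2⟩ := split m hA hAQ hg (mul_mem hv hw)
  refine ⟨a * l, mul_mem ha hl, k * b, mul_mem hk hb, ?_⟩
  have e3 : b * w = w * b := V_Q hb.2 hw
  show a * v * (b * w) = a * l * (k * b)
  calc a * v * (b * w) = a * (v * w) * b := by rw [e3]; group
    _ = a * l * (k * b) := by rw [e2]; group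

omit hg in
/-- a minimal `⟨A, A^g⟩` -/
theorem exists_min : ∃ g, g ∉ M ∧ ∀ k ∈ A ⊔ cj g A, k ∉ M → A ⊔ cj k A = A ⊔ cj g A := by
  obtain ⟨g₀, hg₀⟩ := m.exists_notMem
  obtain ⟨g, hg, hmin⟩ := (Set.toFinite {g : G | g ∉ M}).exists_minimalFor
    (fun g => Nat.card (A ⊔ cj g A : Subgroup G)) {g : G | g ∉ M} ⟨g₀, hg₀⟩
  refine ⟨g, hg, fun k hk hkM => ?_⟩
  have hle : A ⊔ cj k A ≤ A ⊔ cj g A := by
    refine sup_le le_sup_left ?_
    rw [cj_le_iff]
    intro a ha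
    have ha' : a ∈ A ⊔ cj g A := Subgroup.mem_sup_left ha
    exact mul_mem (mul_mem hk ha') (inv_mem hk)
  have h2 := hmin (j := k) hkM (Subgroup.card_le_of_le hle)
  exact Subgroup.eq_of_le_of_card_ge hle h2

theorem sup_Q : (A ⊔ cj g A) ⊔ pCore p G = ⊤ := by
  obtain ⟨h1, -, -⟩ := AQ m hA hAQ
  refine eq_top_of_le m hA hAQ ?_ hg (le_sup_right.trans le_sup_left)
  rw [← h1]
  exact sup_le (le_sup_left.trans le_sup_left) le_sup_right

end Cfsg.Agent.H215.Count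
end

-- part: H215/Coh
section
/-!
# The minimal failure: the cohomological argument
-/

set_option autoImplicit false
set_option linter.unusedSectionVars false
set_option linter.unusedVariables false

open Cfsg

namespace Cfsg.Agent.H215.Coh

open Cfsg.Agent.H215.Fun Cfsg.Agent.H215.Act Cfsg.Agent.H263.FF.Basic
open scoped Pointwise commutatorElement

/-! ### averaging -/

theorem cocycle_avg {X : Type*} [Group X] [Finite X] {F : Type*} [AddCommGroup F] [DistribMulAction X F] {p : ℕ}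
    (hp : p.Prime) (pF : ∀ v : F, p • v = 0) (δ : X → F) (hδ : ∀ x y, δ (x * y) = x • δ y + δ x) (T : Subgroup X)
    (hT : ∀ t ∈ T, δ t = 0) (hn : ¬ p ∣ T.index) : ∃ f : F, ∀ x, x • f = f - δ x := by
  classical
  have _ : Fintype (X ⧸ T) := Fintype.ofFinite _
  let d : X ⧸ T → F := fun c => Quotient.liftOn' c δ (by
    intro a b hab
    rw [QuotientGroup.leftRel_apply] at hab
    have h1 := hδ a (a⁻¹ * b)
    rw [mul_inv_cancel_left, hT _ hab, smul_zero, zero_add] at h1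
    exact h1.symm)
  have hd : ∀ (x : X) (c : X ⧸ T), d (x • c) = x • d c + δ x := by
    intro x c
    induction c using QuotientGroup.induction_on with
    | H a => exact hδ x a
  have h1 : ∀ x, x • (∑ c, d c) = (∑ c, d c) - T.index • δ x := by
    intro x
    have h2 : ∑ c, d c = ∑ c, (x • d c + δ x) := by
      rw [← Equiv.sum_comp (MulAction.toPerm x) d]
      exact Finset.sum_congr rfl fun c _ => hd x c
    rw [Finset.sum_add_distrib, Finset.sum_const, Finset.card_univ, ← Nat.card_eq_fintype_card,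
      ← Subgroup.index_eq_card, ← Finset.smul_sum] at h2
    rw [eq_sub_iff_add_eq]
    exact h2.symm
  have hc : Nat.Coprime T.index p := (Nat.coprime_comm.1 ((Nat.Prime.coprime_iff_not_dvd hp).2 hn))
  obtain ⟨k, -, hk⟩ := Nat.exists_mul_mod_eq_one_of_coprime hc hp.one_lt
  refine ⟨k • ∑ c, d c, fun x => ?_⟩
  have h3 : (T.index * k) • δ x = δ x := by
    rw [← Nat.div_add_mod (T.index * k) p, hk, add_smul, one_smul, mul_comm, mul_smul, pF, smul_zero, zero_add]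
  calc x • (k • ∑ c, d c) = k • (x • ∑ c, d c) := by rw [smul_comm]
    _ = k • (∑ c, d c) - (T.index * k) • δ x := by rw [h1, smul_sub, mul_comm, mul_smul]
    _ = _ := by rw [h3]

/-! ### equivariant maps from subgroups -/

variable {G : Type*} [Group G]

/-- an `H`-equivariant nonzero homomorphism from `U` to `F` -/
structure EqH (H : Subgroup G) (F : Type*) [AddCommGroup F] [DistribMulAction G F] (U : Subgroup G) (θ : G → F) :
    Prop where
  inv : ∀ h ∈ H, ∀ u ∈ U, h * u * h⁻¹ ∈ U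
  add : ∀ x ∈ U, ∀ y ∈ U, θ (x * y) = θ x + θ y
  eqv : ∀ h ∈ H, ∀ u ∈ U, θ (h * u * h⁻¹) = h • θ u
  ne : ∃ u ∈ U, θ u ≠ 0

namespace EqH

variable {H : Subgroup G} {F : Type*} [AddCommGroup F] [DistribMulAction G F] {U : Subgroup G} {θ : G → F}
variable (e : EqH H F U θ)
include e

theorem one : θ 1 = 0 := by
  have := e.add 1 (one_mem _) 1 (one_mem _)
  rw [mul_one] at this
  exact (add_eq_left.1 this.symm)

theorem neg {x : G} (hx : x ∈ U) : θ x⁻¹ = - θ x := by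
  have := e.add x hx x⁻¹ (inv_mem hx)
  rw [mul_inv_cancel, e.one] at this
  exact (neg_eq_of_add_eq_zero_right this.symm).symm

theorem surj (irr : ∀ N : AddSubgroup F, (∀ x ∈ H, ∀ v ∈ N, x • v ∈ N) → N = ⊥ ∨ N = ⊤) (v : F) : ∃ u ∈ U, θ u = v := by
  let N : AddSubgroup F :=
    { carrier := {v | ∃ u ∈ U, θ u = v}
      zero_mem' := ⟨1, one_mem _, e.one⟩
      add_mem' := by
        rintro _ _ ⟨x, hx, rfl⟩ ⟨y, hy, rfl⟩
        exact ⟨x * y, mul_mem hx hy, e.add x hx y hy⟩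
      neg_mem' := by
        rintro _ ⟨x, hx, rfl⟩
        exact ⟨x⁻¹, inv_mem hx, e.neg hx⟩ }
  have h1 : N = ⊤ := by
    refine (irr N ?_).resolve_left ?_
    · rintro h hh _ ⟨x, hx, rfl⟩
      exact ⟨h * x * h⁻¹, e.inv h hh x hx, e.eqv h hh x hx⟩
    · intro h2
      obtain ⟨u, hu, hu'⟩ := e.ne
      apply hu'
      have h3 : θ u ∈ N := ⟨u, hu, rfl⟩
      rw [h2] at h3
      exact AddSubgroup.mem_bot.1 h3
  have h2 : v ∈ N := by rw [h1]; trivial
  exact h2

end EqH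

/-- nilpotency -/
theorem nil [Finite G] {p : ℕ} [hp : Fact p.Prime] {Q N : Subgroup G} (hQ : IsPGroup p Q) (hN : N ≤ Q) (h : N ≤ ⁅N, Q⁆) : N = ⊥ := by
  have _ : Group.IsNilpotent Q := hQ.isNilpotent
  have h1 : N.subgroupOf Q ≤ ⁅N.subgroupOf Q, (⊤ : Subgroup Q)⁆ := by
    have h2 : (⁅N.subgroupOf Q, (⊤ : Subgroup Q)⁆).map Q.subtype = ⁅N, Q⁆ := by
      rw [Subgroup.map_commutator, ← MonoidHom.range_eq_map, Q.range_subtype, Subgroup.subgroupOf_map_subtype, inf_eq_left.2 hN]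
    intro x hx
    have h3 : (x : G) ∈ (⁅N.subgroupOf Q, (⊤ : Subgroup Q)⁆).map Q.subtype := by
      rw [h2]; exact h hx
    obtain ⟨y, hy, hxy⟩ := h3
    have h4 : y = x := Subtype.ext hxy
    rwa [← h4]
  have h2 := Cfsg.Agent.Lib.Hyperfocal.eq_bot_of_le_commutator h1
  rw [Subgroup.subgroupOf_eq_bot, disjoint_iff, inf_eq_left.2 hN] at h2
  exact h2

/-- **a minimal source is centralized by `I`** -/
theorem comm_of_min [Finite G] {p : ℕ} [hp : Fact p.Prime] {Q I H : Subgroup G} (hQ : IsPGroup p Q) (hI : I ≤ Q)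
    (hIH : I ≤ H) (hH : ∀ h ∈ H, ∀ i ∈ I, h * i = i * h)
    {F : Type*} [AddCommGroup F] [DistribMulAction G F] {U : Subgroup G} {θ : G → F} (e : EqH H F U θ)
    (hU : U ≤ Q)
    (hmin : ∀ (U' : Subgroup G) (θ' : G → F), U' ≤ U → EqH H F U' θ' → U' = U) :
    ∀ u ∈ U, ∀ i ∈ I, u * i = i * u := by
  classical
  -- `[U, I]`
  have hUne : U ≠ ⊥ := by
    rintro rfl
    obtain ⟨u, hu, hu'⟩ := e.ne
    rw [Subgroup.mem_bot] at hu
    rw [hu, e.one] at hu'
    exact hu' rfl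
  set D₁ := ⁅U, I⁆ with hD₁
  have hD₁U : D₁ ≤ U := by
    rw [hD₁, Subgroup.commutator_le]
    intro u hu i hi
    rw [commutatorElement_def]
    have h1 := e.inv i (hIH hi) u⁻¹ (inv_mem hu)
    have h2 := mul_mem hu h1
    rwa [show u * (i * u⁻¹ * i⁻¹) = u * i * u⁻¹ * i⁻¹ by group] at h2
  have hD₁ne : ¬ U ≤ D₁ := by
    intro h
    exact hUne (nil hQ hU (h.trans (Subgroup.commutator_mono le_rfl hI)))
  have hHU : H ≤ Subgroup.normalizer (U : Set G) := by
    intro h hh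
    rw [Subgroup.mem_normalizer_iff]
    intro u
    refine ⟨fun hu => e.inv h hh u hu, fun hu => ?_⟩
    have h1 := e.inv h⁻¹ (inv_mem hh) _ hu
    rwa [show h⁻¹ * (h * u * h⁻¹) * h⁻¹⁻¹ = u by group] at h1
  have hHI : ∀ h ∈ H, ∀ i ∈ I, h * i * h⁻¹ = i := by
    intro h hh i hi
    rw [hH h hh i hi, mul_inv_cancel_right]
  have conjcomm : ∀ h ∈ H, ∀ u : G, ∀ i ∈ I, h * ⁅u, i⁆ * h⁻¹ = ⁅h * u * h⁻¹, i⁆ := by
    intro h hh u i hi
    rw [commutatorElement_def, commutatorElement_def]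
    calc h * (u * i * u⁻¹ * i⁻¹) * h⁻¹ = (h * u * h⁻¹) * (h * i * h⁻¹) * (h * u * h⁻¹)⁻¹ * (h * i * h⁻¹)⁻¹ := by group
      _ = _ := by rw [hHI h hh i hi]
  have hHD : ∀ h ∈ H, ∀ d ∈ D₁, h * d * h⁻¹ ∈ D₁ := by
    intro h hh d hd
    have h1 : D₁ ≤ D₁.comap (MulAut.conj h).toMonoidHom := by
      nth_rewrite 1 [hD₁]
      rw [Subgroup.commutator_le]
      intro u hu i hi
      show h * ⁅u, i⁆ * h⁻¹ ∈ D₁
      rw [conjcomm h hh u i hi]
      exact Subgroup.commutator_mem_commutator (e.inv h hh u hu) hi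
    exact h1 hd
  have hUD : ∀ u ∈ U, ∀ d ∈ D₁, u * d * u⁻¹ ∈ D₁ := by
    intro x hx d hd
    have h1 : D₁ ≤ D₁.comap (MulAut.conj x).toMonoidHom := by
      nth_rewrite 1 [hD₁]
      rw [Subgroup.commutator_le]
      intro u hu i hi
      show x * ⁅u, i⁆ * x⁻¹ ∈ D₁
      have h2 : x * ⁅u, i⁆ * x⁻¹ = ⁅x * u, i⁆ * ⁅x, i⁆⁻¹ := by
        simp only [commutatorElement_def]; group
      rw [h2]
      exact mul_mem (Subgroup.commutator_mem_commutator (mul_mem hx hu) hi)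
        (inv_mem (Subgroup.commutator_mem_commutator hx hi))
    exact h1 hd
  by_contra hcon
  push Not at hcon
  obtain ⟨u₀, hu₀, i₀, hi₀, hne⟩ := hcon
  -- `[D₁, U]`
  set N₁ := ⁅D₁, U⁆ with hN₁
  have hN₁D : N₁ ≤ D₁ := by
    rw [hN₁, Subgroup.commutator_le]
    intro d hd u hu
    rw [commutatorElement_def]
    have h2 := mul_mem hd (hUD u hu d⁻¹ (inv_mem hd))
    rwa [show d * (u * d⁻¹ * u⁻¹) = d * u * d⁻¹ * u⁻¹ by group] at h2
  have hnle : ¬ D₁ ≤ N₁ := by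
    intro h
    have h1 : D₁ = ⊥ := nil hQ (hD₁U.trans hU) (h.trans (Subgroup.commutator_mono le_rfl hU))
    have h2 : ⁅u₀, i₀⁆ ∈ D₁ := Subgroup.commutator_mem_commutator hu₀ hi₀
    rw [h1, Subgroup.mem_bot, commutatorElement_eq_one_iff_mul_comm] at h2
    exact hne h2
  obtain ⟨u₁, hu₁, i, hi, hui⟩ : ∃ u ∈ U, ∃ i ∈ I, ⁅u, i⁆ ∉ N₁ := by
    by_contra hcon
    push Not at hcon
    exact hnle (Subgroup.commutator_le.2 hcon)
  have hHN : ∀ h ∈ H, ∀ d ∈ N₁, h * d * h⁻¹ ∈ N₁ := by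
    intro h hh d hd
    have h1 : N₁ ≤ N₁.comap (MulAut.conj h).toMonoidHom := by
      nth_rewrite 1 [hN₁]
      rw [Subgroup.commutator_le]
      intro u hu i hi
      show h * ⁅u, i⁆ * h⁻¹ ∈ N₁
      have h2 : h * ⁅u, i⁆ * h⁻¹ = ⁅h * u * h⁻¹, h * i * h⁻¹⁆ := by
        simp only [commutatorElement_def]; group
      rw [h2]
      exact Subgroup.commutator_mem_commutator (hHD h hh u hu) (e.inv h hh i hi)
    exact h1 hd
  have hUN : ∀ u ∈ U, ∀ d ∈ D₁, ⁅u, d⁆ ∈ N₁ := by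
    intro u hu d hd
    rw [hN₁, Subgroup.commutator_comm]
    exact Subgroup.commutator_mem_commutator hu hd
  have hUN' : ∀ u ∈ U, ∀ d ∈ N₁, u * d * u⁻¹ ∈ N₁ := by
    intro u hu d hd
    have h1 := mul_mem (hUN u hu d (hN₁D hd)) hd
    rwa [commutatorElement_def, inv_mul_cancel_right] at h1
  -- congruence modulo `N₁`: `x ≡ y` iff `x⁻¹ y ∈ N₁`
  have hmulU : ∀ u ∈ U, ∀ v ∈ U, (⁅u, i⁆ * ⁅v, i⁆)⁻¹ * ⁅u * v, i⁆ ∈ N₁ := by
    intro u hu v hv
    -- `⁅u v, i⁆ = (u ⁅v,i⁆ u⁻¹) ⁅u,i⁆`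
    set a := ⁅u, i⁆ with ha
    set b := ⁅v, i⁆ with hb
    have haD : a ∈ D₁ := Subgroup.commutator_mem_commutator hu hi
    have hbD : b ∈ D₁ := Subgroup.commutator_mem_commutator hv hi
    have h1 : ⁅u * v, i⁆ = u * b * u⁻¹ * a := by
      rw [ha, hb]; simp only [commutatorElement_def]; group
    have h2 : (a * b)⁻¹ * ⁅u * v, i⁆ = (b⁻¹ * (a⁻¹ * ⁅u, b⁆ * a⁻¹⁻¹) * b⁻¹⁻¹) * (b⁻¹ * a⁻¹ * b * a) := by
      rw [h1]; simp only [commutatorElement_def]; group
    rw [h2]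
    have haU := hD₁U haD
    have hbU := hD₁U hbD
    refine mul_mem (hUN' _ (inv_mem hbU) _ (hUN' _ (inv_mem haU) _ (hUN u hu b hbD))) ?_
    have h3 := hUN b⁻¹ (inv_mem hbU) a⁻¹ (inv_mem haD)
    rwa [commutatorElement_def, inv_inv, inv_inv] at h3
  have hinvU : ∀ u ∈ U, ⁅u, i⁆ * ⁅u⁻¹, i⁆ ∈ N₁ := by
    intro u hu
    have h1 := hmulU u hu u⁻¹ (inv_mem hu)
    rw [mul_inv_cancel, commutatorElement_one_left, mul_one] at h1
    have := inv_mem h1
    rwa [inv_inv] at this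
  -- normality of `N₁` in `U` for swapping
  have swap : ∀ {x y : G}, y ∈ U → x * y ∈ N₁ → y * x ∈ N₁ := by
    intro x y hy h
    have h1 := hUN' y hy _ h
    rwa [show y * (x * y) * y⁻¹ = y * x by group] at h1
  -- the kernel
  let Kr : Subgroup G :=
    { carrier := {u | u ∈ U ∧ ⁅u, i⁆ ∈ N₁}
      one_mem' := ⟨one_mem _, by rw [commutatorElement_one_left]; exact one_mem _⟩
      mul_mem' := by
        rintro u v ⟨hu, hu'⟩ ⟨hv, hv'⟩
        refine ⟨mul_mem hu hv, ?_⟩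
        have h1 := mul_mem (mul_mem hu' hv') (hmulU u hu v hv)
        rwa [mul_inv_cancel_left] at h1
      inv_mem' := by
        rintro u ⟨hu, hu'⟩
        refine ⟨inv_mem hu, ?_⟩
        have h1 := mul_mem (inv_mem hu') (hinvU u hu)
        rwa [inv_mul_cancel_left] at h1 }
  have hKr : ∀ u, u ∈ Kr ↔ u ∈ U ∧ ⁅u, i⁆ ∈ N₁ := fun u => Iff.rfl
  have hKrU : Kr ≤ U := fun u hu => hu.1
  have hKrθ : ∀ u ∈ Kr, θ u = 0 := by
    intro u hu
    by_contra hne
    have h1 : EqH H F Kr θ :=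
      { inv := by
          intro h hh u hu
          refine ⟨e.inv h hh u hu.1, ?_⟩
          rw [← conjcomm h hh u i hi]
          exact hHN h hh _ hu.2
        add := fun x hx y hy => e.add x hx.1 y hy.1
        eqv := fun h hh u hu => e.eqv h hh u hu.1
        ne := ⟨u, hu, hne⟩ }
    have h2 := hmin Kr θ hKrU h1
    have h3 : u₁ ∈ Kr := by rw [h2]; exact hu₁
    exact hui h3.2
  -- the image
  let D₂ : Subgroup G :=
    { carrier := {x | ∃ u ∈ U, ⁅u, i⁆⁻¹ * x ∈ N₁}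
      one_mem' := ⟨1, one_mem _, by rw [commutatorElement_one_left, inv_one, mul_one]; exact one_mem _⟩
      mul_mem' := by
        rintro x y ⟨u, hu, hx⟩ ⟨v, hv, hy⟩
        refine ⟨u * v, mul_mem hu hv, ?_⟩
        have hvD : ⁅v, i⁆ ∈ D₁ := Subgroup.commutator_mem_commutator hv hi
        have h1 := hUN' _ (inv_mem (hD₁U hvD)) _ hx
        have h2 := mul_mem (mul_mem (inv_mem (hmulU u hu v hv)) h1) hy
        have h3 : ((⁅u, i⁆ * ⁅v, i⁆)⁻¹ * ⁅u * v, i⁆)⁻¹ * (⁅v, i⁆⁻¹ * (⁅u, i⁆⁻¹ * x) * ⁅v, i⁆⁻¹⁻¹) * (⁅v, i⁆⁻¹ * y) =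
            ⁅u * v, i⁆⁻¹ * (x * y) := by group
        rwa [h3] at h2
      inv_mem' := by
        rintro x ⟨u, hu, hx⟩
        refine ⟨u⁻¹, inv_mem hu, ?_⟩
        -- `⁅u⁻¹,i⁆⁻¹ x⁻¹`
        have huD : ⁅u, i⁆ ∈ D₁ := Subgroup.commutator_mem_commutator hu hi
        have huD' : ⁅u⁻¹, i⁆ ∈ D₁ := Subgroup.commutator_mem_commutator (inv_mem hu) hi
        have h1 := inv_mem (hinvU u hu)
        -- `⁅u⁻¹,i⁆⁻¹ ⁅u,i⁆⁻¹ ∈ N₁`
        rw [mul_inv_rev] at h1
        have h2 : (⁅u, i⁆⁻¹ * x)⁻¹ ∈ N₁ := inv_mem hx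
        have h3 := hUN' _ (hD₁U huD) _ h2
        have h4 := mul_mem h1 h3
        have h5 : ⁅u⁻¹, i⁆⁻¹ * ⁅u, i⁆⁻¹ * (⁅u, i⁆ * (⁅u, i⁆⁻¹ * x)⁻¹ * ⁅u, i⁆⁻¹) = ⁅u⁻¹, i⁆⁻¹ * x⁻¹ := by group
        rwa [h5] at h4 }
  have hD₂ : ∀ x, x ∈ D₂ ↔ ∃ u ∈ U, ⁅u, i⁆⁻¹ * x ∈ N₁ := fun x => Iff.rfl
  have hD₂D : D₂ ≤ D₁ := by
    rintro x ⟨u, hu, hx⟩
    have h1 := mul_mem (Subgroup.commutator_mem_commutator hu hi : ⁅u, i⁆ ∈ D₁) (hN₁D hx)
    rwa [mul_inv_cancel_left] at h1
  -- the map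
  let s : G → G := fun x => if h : x ∈ D₂ then h.choose else 1
  have hs : ∀ x ∈ D₂, s x ∈ U ∧ ⁅s x, i⁆⁻¹ * x ∈ N₁ := by
    intro x hx
    have : s x = ((hD₂ x).1 hx).choose := dif_pos hx
    rw [this]
    exact ((hD₂ x).1 hx).choose_spec
  have huniq : ∀ x : G, ∀ u ∈ U, ∀ v ∈ U, ⁅u, i⁆⁻¹ * x ∈ N₁ → ⁅v, i⁆⁻¹ * x ∈ N₁ → θ u = θ v := by
    intro x u hu v hv h1 h2
    -- `⁅u,i⁆⁻¹ ⁅v,i⁆ ∈ N₁`
    have h3 : ⁅u, i⁆⁻¹ * ⁅v, i⁆ ∈ N₁ := by
      have := mul_mem h1 (inv_mem h2)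
      rwa [show ⁅u, i⁆⁻¹ * x * (⁅v, i⁆⁻¹ * x)⁻¹ = ⁅u, i⁆⁻¹ * ⁅v, i⁆ by group] at this
    have h4 : u⁻¹ * v ∈ Kr := by
      refine ⟨mul_mem (inv_mem hu) hv, ?_⟩
      have h5 := hmulU u⁻¹ (inv_mem hu) v hv
      -- `⁅u⁻¹,i⁆ ⁅v,i⁆ ∈ N₁`
      have huD : ⁅u, i⁆ ∈ D₁ := Subgroup.commutator_mem_commutator hu hi
      have huD' : ⁅u⁻¹, i⁆ ∈ D₁ := Subgroup.commutator_mem_commutator (inv_mem hu) hi
      have h6 : ⁅u⁻¹, i⁆ * ⁅u, i⁆ ∈ N₁ := by
        have := hinvU u⁻¹ (inv_mem hu)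
        rwa [inv_inv] at this
      have h7 := mul_mem h6 h3
      rw [show ⁅u⁻¹, i⁆ * ⁅u, i⁆ * (⁅u, i⁆⁻¹ * ⁅v, i⁆) = ⁅u⁻¹, i⁆ * ⁅v, i⁆ by group] at h7
      have h8 := mul_mem h7 h5
      rwa [mul_inv_cancel_left] at h8
    have h5 := hKrθ _ h4
    rw [e.add _ (inv_mem hu) _ hv, e.neg hu, neg_add_eq_zero] at h5
    exact h5
  have e₂ : EqH H F D₂ (fun x => θ (s x)) :=
    { inv := by
        rintro h hh x ⟨u, hu, hx⟩
        refine ⟨h * u * h⁻¹, e.inv h hh u hu, ?_⟩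
        rw [← conjcomm h hh u i hi]
        have h1 := hHN h hh _ hx
        rwa [show h * (⁅u, i⁆⁻¹ * x) * h⁻¹ = (h * ⁅u, i⁆ * h⁻¹)⁻¹ * (h * x * h⁻¹) by group] at h1
      add := by
        intro x hx y hy
        obtain ⟨hxU, hx'⟩ := hs x hx
        obtain ⟨hyU, hy'⟩ := hs y hy
        obtain ⟨hxyU, hxy'⟩ := hs _ (mul_mem hx hy)
        show θ (s (x * y)) = θ (s x) + θ (s y)
        rw [← e.add _ hxU _ hyU]
        refine huniq (x * y) _ hxyU _ (mul_mem hxU hyU) hxy' ?_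
        have hvD : ⁅s y, i⁆ ∈ D₁ := Subgroup.commutator_mem_commutator hyU hi
        have h1 := hUN' _ (inv_mem (hD₁U hvD)) _ hx'
        have h2 := mul_mem (mul_mem (inv_mem (hmulU _ hxU _ hyU)) h1) hy'
        have h3 : ((⁅s x, i⁆ * ⁅s y, i⁆)⁻¹ * ⁅s x * s y, i⁆)⁻¹ * (⁅s y, i⁆⁻¹ * (⁅s x, i⁆⁻¹ * x) * ⁅s y, i⁆⁻¹⁻¹) * (⁅s y, i⁆⁻¹ * y) =
            ⁅s x * s y, i⁆⁻¹ * (x * y) := by group
        rwa [h3] at h2
      eqv := by
        intro h hh x hx
        obtain ⟨hxU, hx'⟩ := hs x hx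
        have hx2 : h * x * h⁻¹ ∈ D₂ := by
          refine ⟨h * s x * h⁻¹, e.inv h hh _ hxU, ?_⟩
          rw [← conjcomm h hh _ i hi]
          have h1 := hHN h hh _ hx'
          rwa [show h * (⁅s x, i⁆⁻¹ * x) * h⁻¹ = (h * ⁅s x, i⁆ * h⁻¹)⁻¹ * (h * x * h⁻¹) by group] at h1
        obtain ⟨hxU2, hx2'⟩ := hs _ hx2
        show θ (s (h * x * h⁻¹)) = h • θ (s x)
        rw [← e.eqv h hh _ hxU]
        refine huniq _ _ hxU2 _ (e.inv h hh _ hxU) hx2' ?_
        rw [← conjcomm h hh _ i hi]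
        have h1 := hHN h hh _ hx'
        rwa [show h * (⁅s x, i⁆⁻¹ * x) * h⁻¹ = (h * ⁅s x, i⁆ * h⁻¹)⁻¹ * (h * x * h⁻¹) by group] at h1
      ne := by
        obtain ⟨u, hu, hu'⟩ := e.ne
        have h1 : ⁅u, i⁆ ∈ D₂ := ⟨u, hu, by rw [inv_mul_cancel]; exact one_mem _⟩
        refine ⟨⁅u, i⁆, h1, ?_⟩
        obtain ⟨h2, h3⟩ := hs _ h1
        show θ (s ⁅u, i⁆) ≠ 0
        rw [huniq _ _ h2 _ hu h3 (by rw [inv_mul_cancel]; exact one_mem _)]
        exact hu' }
  have h1 := hmin D₂ _ (hD₂D.trans hD₁U) e₂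
  exact hD₁ne (by rw [← h1]; exact hD₂D)

end Cfsg.Agent.H215.Coh
end

-- part: H215/RO
section
/-!
# The minimal failure does not exist
-/

set_option autoImplicit false
set_option linter.unusedSectionVars false
set_option linter.unusedVariables false

open Cfsg

namespace Cfsg.Agent.H215.RO

open Cfsg.Agent.H215.Fun Cfsg.Agent.H215.Act Cfsg.Agent.H215.Setup Cfsg.Agent.H215.Setup.Min
open Cfsg.Agent.H263.FF.Basic Cfsg.Agent.H215.RankOne Cfsg.Agent.H215.Off Cfsg.Agent.H215.Baum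
open Cfsg.Agent.H215.Count Cfsg.Agent.H215.Coh
open scoped Pointwise commutatorElement

universe u

variable {G : Type u} [Group G] [Finite G] {p : ℕ} [hp : Fact p.Prime]
variable {S : Sylow p G} {M : Subgroup G} (m : Min p S M)
include m

/-- the module of a bad chief factor -/
theorem exists_F : ∃ (F : Type u) (_ : AddCommGroup F) (_ : Finite F) (_ : DistribMulAction G F) (U : Subgroup G) (θ : G → F),
    (∀ v : F, p • v = 0) ∧ (∀ N : AddSubgroup F, (∀ x : G, ∀ v ∈ N, x • v ∈ N) → N = ⊥ ∨ N = ⊤) ∧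
    (∃ (x : G) (v : F), x • v ≠ v) ∧ (∃ B : AddSubgroup F, B ≠ ⊤ ∧ ∀ k ∈ M, ∀ v : F, k • v - v ∈ B) ∧
    U ≤ pCore p G ∧ EqH (⊤ : Subgroup G) F U θ := by
  classical
  have hPn := Qn (p := p) (G := G)
  obtain ⟨U, W, hUW, hUP, hne, hnle⟩ : ∃ U W : Subgroup G, IsChiefFactor U W ∧ U ≤ pCore p G ∧ ⁅U, M⁆ ⊔ W ≠ U ∧
      ¬ ⁅U, (⊤ : Subgroup G)⁆ ≤ W := by
    by_contra hcon
    push Not at hcon
    exact m.bad (Cfsg.Agent.H39.commutator_top_le S QS m.SM fun U V h1 h2 h3 => hcon U V h1 h2 h3)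
  obtain ⟨hcm, hpw⟩ := Cfsg.Agent.H39.chief_elementary hUW (S.isPGroup'.to_le (hUP.trans QS))
  obtain ⟨hlt, hUn, hWn, hmin⟩ := hUW
  set f : G →* G ⧸ W := QuotientGroup.mk' W with hf
  have hfe : ∀ x, f x = 1 ↔ x ∈ W := fun x => QuotientGroup.eq_one_iff x
  have hInv : Inv f (U.map f) := by
    constructor
    · rintro _ ⟨a, ha, rfl⟩ _ ⟨b, hb, rfl⟩
      have h1 := (hfe _).2 (hcm a ha b hb)
      rw [map_commutatorElement, commutatorElement_eq_one_iff_mul_comm] at h1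
      exact h1
    · rintro g _ ⟨a, ha, rfl⟩
      exact ⟨g * a * g⁻¹, hUn.conj_mem a ha g, by rw [map_mul, map_mul, map_inv]⟩
  let F := Md f (U.map f) hInv
  let θ : G → F := fun x => if h : x ∈ U then Md.mk f hInv (Subgroup.mem_map_of_mem f h) else 0
  have hθ : ∀ x ∈ U, (θ x).val = f x := by
    intro x hx
    have h1 : θ x = Md.mk f hInv (Subgroup.mem_map_of_mem f hx) := dif_pos hx
    rw [h1]; rfl
  have hθ0 : ∀ x ∈ U, (θ x = 0 ↔ x ∈ W) := by
    intro x hx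
    rw [Md.ext_zero, hθ x hx, hfe]
  have hsurj : ∀ v : F, ∃ x ∈ U, θ x = v := by
    intro v
    obtain ⟨x, hx, hxv⟩ := v.val_mem
    exact ⟨x, hx, Md.val_inj (by rw [hθ x hx, hxv])⟩
  have e : EqH (⊤ : Subgroup G) F U θ :=
    { inv := fun h _ u hu => hUn.conj_mem u hu h
      add := fun x hx y hy => Md.val_inj (by rw [Md.val_add, hθ _ hx, hθ _ hy, hθ _ (mul_mem hx hy), map_mul])
      eqv := fun h _ u hu => Md.val_inj (by
        rw [Md.val_smul, hθ _ hu, hθ _ (hUn.conj_mem u hu h), map_mul, map_mul, map_inv])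
      ne := by
        obtain ⟨u, hu, hu'⟩ := SetLike.exists_of_lt hlt
        exact ⟨u, hu, fun h => hu' ((hθ0 u hu).1 h)⟩ }
  refine ⟨F, inferInstance, inferInstance, inferInstance, U, θ, ?_, ?_, ?_, ?_, hUP, e⟩
  · intro v
    obtain ⟨x, hx, rfl⟩ := hsurj v
    apply Md.ext_zero.2
    rw [Md.val_nsmul, hθ x hx, ← map_pow, hfe]
    exact hpw x hx
  · intro N hN
    let N' : Subgroup G :=
      { carrier := {x | x ∈ U ∧ θ x ∈ N}
        one_mem' := ⟨one_mem _, by rw [e.one]; exact N.zero_mem⟩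
        mul_mem' := by
          rintro a b ⟨ha, ha'⟩ ⟨hb, hb'⟩
          exact ⟨mul_mem ha hb, by rw [e.add a ha b hb]; exact N.add_mem ha' hb'⟩
        inv_mem' := by
          rintro a ⟨ha, ha'⟩
          exact ⟨inv_mem ha, by rw [e.neg ha]; exact N.neg_mem ha'⟩ }
    have hN'n : N'.Normal := ⟨fun x hx g => ⟨hUn.conj_mem x hx.1 g, by
      rw [e.eqv g trivial x hx.1]; exact hN g _ hx.2⟩⟩
    have hWN' : W ≤ N' := fun x hx => ⟨hlt.le hx, by rw [(hθ0 x (hlt.le hx)).2 hx]; exact N.zero_mem⟩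
    rcases hmin N' hN'n hWN' (fun x hx => hx.1) with h | h
    · left
      rw [eq_bot_iff]
      intro v hv
      obtain ⟨x, hx, rfl⟩ := hsurj v
      have h1 : x ∈ N' := ⟨hx, hv⟩
      rw [h] at h1
      exact (AddSubgroup.mem_bot).2 ((hθ0 x hx).2 h1)
    · right
      rw [eq_top_iff]
      intro v _
      obtain ⟨x, hx, rfl⟩ := hsurj v
      have h1 : x ∈ N' := by rw [h]; exact hx
      exact h1.2
  · obtain ⟨x, hx, g, hxg⟩ : ∃ x ∈ U, ∃ g : G, ⁅x, g⁆ ∉ W := by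
      by_contra hcon
      push Not at hcon
      exact hnle (Subgroup.commutator_le.2 fun x hx g _ => hcon x hx g)
    refine ⟨g, θ x, fun h => hxg ?_⟩
    rw [Md.smul_eq_iff, hθ x hx] at h
    rw [← hfe, map_commutatorElement, commutatorElement_eq_one_iff_mul_comm]
    exact h.symm
  · have hBU : ⁅U, M⁆ ⊔ W ≤ U := sup_le (Subgroup.commutator_le_left U M) hlt.le
    let B : AddSubgroup F :=
      { carrier := {v | ∃ x ∈ ⁅U, M⁆ ⊔ W, θ x = v}
        zero_mem' := ⟨1, one_mem _, e.one⟩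
        add_mem' := by
          rintro _ _ ⟨x, hx, rfl⟩ ⟨y, hy, rfl⟩
          exact ⟨x * y, mul_mem hx hy, e.add x (hBU hx) y (hBU hy)⟩
        neg_mem' := by
          rintro _ ⟨x, hx, rfl⟩
          exact ⟨x⁻¹, inv_mem hx, e.neg (hBU hx)⟩ }
    refine ⟨B, ?_, ?_⟩
    · intro hB
      apply hne
      refine le_antisymm hBU fun x hx => ?_
      have h1 : θ x ∈ B := by rw [hB]; trivial
      obtain ⟨y, hy, hyx⟩ := h1
      have h2 : θ (y⁻¹ * x) = 0 := by
        rw [e.add _ (inv_mem (hBU hy)) _ hx, e.neg (hBU hy), hyx, neg_add_cancel]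
      rw [hθ0 _ (mul_mem (inv_mem (hBU hy)) hx)] at h2
      have h3 := mul_mem hy (Subgroup.mem_sup_right h2 : y⁻¹ * x ∈ ⁅U, M⁆ ⊔ W)
      rwa [mul_inv_cancel_left] at h3
    · intro k hk v
      obtain ⟨x, hx, rfl⟩ := hsurj v
      -- `k x k⁻¹ x⁻¹`
      have h1 : ⁅x, k⁆ ∈ ⁅U, M⁆ := Subgroup.commutator_mem_commutator hx hk
      refine ⟨⁅x, k⁆⁻¹, Subgroup.mem_sup_left (inv_mem h1), ?_⟩
      have h2 : ⁅x, k⁆⁻¹ = (k * x * k⁻¹) * x⁻¹ := by rw [commutatorElement_def]; group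
      rw [h2, e.add _ (hUn.conj_mem x hx k) _ (inv_mem hx), e.neg hx, e.eqv k trivial x hx, sub_eq_add_neg]

/-- **there is no minimal failure** -/
theorem false_of_min : False := by
  classical
  have hPn := Qn (p := p) (G := G)
  obtain ⟨F, _, _, _, U₀, θ₀, pF, irr, nt, bad, hU₀, e₀⟩ := exists_F m
  obtain ⟨hQF, hSF, hcF⟩ := bad_G m.p2 S.isPGroup' QS m.SQ m.SM m.Mne m.max
    (fun g₁ hg₁ x hx => c4 m hg₁ hx) (fun g₁ hg₁ s hs h => c5 m hg₁ hs h) pF irr nt bad
  obtain ⟨A, hA, hAQ⟩ := exists_A m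
  obtain ⟨g, hg, hgmin⟩ := exists_min m hA hAQ
  set Q := pCore p G with hQ
  set I := A ⊓ cj g A with hI
  set H := Subgroup.centralizer (I : Set G) with hH
  set G₀ := A ⊔ cj g A with hG₀
  have hG₀H : G₀ ≤ H := by
    refine sup_le ?_ ?_
    · intro a ha
      rw [hH, Subgroup.mem_centralizer_iff]
      intro i hi
      exact hA.2.1 i (Subgroup.mem_inf.1 hi).1 a ha
    · intro b hb
      rw [hH, Subgroup.mem_centralizer_iff]
      intro i hi
      have h1 := hA.2.1 _ (mem_cj.1 (Subgroup.mem_inf.1 hi).2) _ (mem_cj.1 hb)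
      calc i * b = g * ((g⁻¹ * i * g) * (g⁻¹ * b * g)) * g⁻¹ := by group
        _ = g * ((g⁻¹ * b * g) * (g⁻¹ * i * g)) * g⁻¹ := by rw [h1]
        _ = _ := by group
  have hG₀Q : G₀ ⊔ Q = ⊤ := sup_Q m hA hAQ hg
  have hIQ : I ≤ Q := I_le m hA hAQ hg
  have hIH : I ≤ H := (inf_le_left.trans le_sup_left).trans hG₀H
  have hHI : ∀ h ∈ H, ∀ i ∈ I, h * i = i * h := fun h hh i hi => (Subgroup.mem_centralizer_iff.1 hh i hi).symm
  -- irreducibility under supplements of `Q`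
  have irrK : ∀ K : Subgroup G, K ⊔ Q = ⊤ → ∀ N : AddSubgroup F, (∀ x ∈ K, ∀ v ∈ N, x • v ∈ N) → N = ⊥ ∨ N = ⊤ := by
    intro K hK N hN
    refine irr N fun x v hv => ?_
    have h1 : x ∈ K ⊔ Q := by rw [hK]; trivial
    obtain ⟨k, hk, q, hq, rfl⟩ := Subgroup.mem_sup_of_normal_right.1 h1
    rw [mul_smul, hQF q hq]
    exact hN k hk v hv
  have irrH := irrK H (top_le_iff.1 (hG₀Q ▸ sup_le_sup_right hG₀H Q))
  have irrG₀ := irrK G₀ hG₀Q
  have hF0 : (⊤ : AddSubgroup F) ≠ ⊥ := by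
    intro h
    obtain ⟨x, v, hv⟩ := nt
    have h1 : v ∈ (⊥ : AddSubgroup F) := by rw [← h]; trivial
    rw [AddSubgroup.mem_bot] at h1
    exact hv (by rw [h1, smul_zero])
  -- a minimal source
  have hex : ∃ U : Subgroup G, U ≤ Q ∧ ∃ θ : G → F, EqH H F U θ :=
    ⟨U₀, hU₀, θ₀, ⟨fun h _ => e₀.inv h trivial, e₀.add, fun h _ => e₀.eqv h trivial, e₀.ne⟩⟩
  obtain ⟨U, ⟨hUQ, θ, e⟩, hUmin⟩ := (Set.toFinite {U : Subgroup G | U ≤ Q ∧ ∃ θ : G → F, EqH H F U θ}).exists_minimalFor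
    (fun U : Subgroup G => Nat.card U) {U : Subgroup G | U ≤ Q ∧ ∃ θ : G → F, EqH H F U θ} hex
  have hUI : ∀ u ∈ U, ∀ i ∈ I, u * i = i * u := by
    refine comm_of_min (S.isPGroup'.to_le QS) hIQ hIH hHI e hUQ ?_
    intro U' θ' hU' e'
    have h1 := hUmin (j := U') ⟨hU'.trans hUQ, θ', e'⟩ (Subgroup.card_le_of_le hU')
    exact Subgroup.eq_of_le_of_card_ge hU' h1
  -- the cohomological argument
  have key : ∀ u ∈ U, θ u ∈ fx F A ⊔ fx F (cj g A) := by
    intro u hu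
    obtain ⟨a₀, ha₀, b₀, hb₀, hab⟩ := mem_Q1 m hA hAQ hg (hUQ hu) fun i hi => (hUI u hu i hi).symm
    have ha₀A := (Subgroup.mem_inf.1 ha₀).1
    have hb₀A := (Subgroup.mem_inf.1 hb₀).1
    let c : G → G := fun k => k * a₀ * k⁻¹ * a₀⁻¹
    have hcmul : ∀ k k', c (k * k') = (k * c k' * k⁻¹) * c k := fun k k' => by
      show k * k' * a₀ * (k * k')⁻¹ * a₀⁻¹ = (k * (k' * a₀ * k'⁻¹ * a₀⁻¹) * k⁻¹) * (k * a₀ * k⁻¹ * a₀⁻¹)
      group
    let R : Subgroup G :=
      { carrier := {k | k ∈ H ∧ c k ∈ U}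
        one_mem' := ⟨one_mem _, by
          show 1 * a₀ * 1⁻¹ * a₀⁻¹ ∈ U
          rw [show (1 : G) * a₀ * 1⁻¹ * a₀⁻¹ = 1 by group]; exact one_mem _⟩
        mul_mem' := by
          rintro k k' ⟨hk, hk'⟩ ⟨hl, hl'⟩
          exact ⟨mul_mem hk hl, by
            show c (k * k') ∈ U
            rw [hcmul]
            exact mul_mem (e.inv k hk _ hl') hk'⟩
        inv_mem' := by
          rintro k ⟨hk, hk'⟩
          refine ⟨inv_mem hk, ?_⟩
          have h1 := e.inv k⁻¹ (inv_mem hk) _ (inv_mem hk')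
          have h2 : k⁻¹ * (c k)⁻¹ * k⁻¹⁻¹ = c k⁻¹ := by
            show k⁻¹ * (k * a₀ * k⁻¹ * a₀⁻¹)⁻¹ * k⁻¹⁻¹ = k⁻¹ * a₀ * k⁻¹⁻¹ * a₀⁻¹
            group
          rw [h2] at h1
          exact h1 }
    have hcA : ∀ k ∈ A, c k = 1 := by
      intro k hk
      show k * a₀ * k⁻¹ * a₀⁻¹ = 1
      rw [hA.2.1 k hk a₀ ha₀A]; group
    have hcB : ∀ k ∈ cj g A, c k = (k * u * k⁻¹) * u⁻¹ := by
      intro k hk
      have h1 := hA.2.1 _ (mem_cj.1 hk) _ (mem_cj.1 hb₀A)
      have h2 : k * b₀ = b₀ * k := by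
        calc k * b₀ = g * ((g⁻¹ * k * g) * (g⁻¹ * b₀ * g)) * g⁻¹ := by group
          _ = g * ((g⁻¹ * b₀ * g) * (g⁻¹ * k * g)) * g⁻¹ := by rw [h1]
          _ = _ := by group
      show k * a₀ * k⁻¹ * a₀⁻¹ = (k * u * k⁻¹) * u⁻¹
      rw [hab]
      have h3 : k * (a₀ * b₀) * k⁻¹ = k * a₀ * k⁻¹ * b₀ := by
        calc k * (a₀ * b₀) * k⁻¹ = k * a₀ * k⁻¹ * (k * b₀) * k⁻¹ := by group
          _ = k * a₀ * k⁻¹ * (b₀ * k) * k⁻¹ := by rw [h2]
          _ = _ := by group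
      rw [h3]; group
    have hG₀R : G₀ ≤ R := by
      refine sup_le ?_ ?_
      · intro k hk
        exact ⟨hG₀H (Subgroup.mem_sup_left hk), by
          show c k ∈ U
          rw [hcA k hk]; exact one_mem _⟩
      · intro k hk
        have hkH : k ∈ H := hG₀H (Subgroup.mem_sup_right hk)
        exact ⟨hkH, by
          show c k ∈ U
          rw [hcB k hk]; exact mul_mem (e.inv k hkH u hu) (inv_mem hu)⟩
    let δ : G → F := fun k => θ (c k)
    have hδ : ∀ k ∈ G₀, ∀ k' ∈ G₀, δ (k * k') = k • δ k' + δ k := by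
      intro k hk k' hk'
      show θ (c (k * k')) = k • θ (c k') + θ (c k)
      rw [hcmul, e.add _ (e.inv k (hG₀H hk) _ (hG₀R hk').2) _ (hG₀R hk).2, e.eqv k (hG₀H hk) _ (hG₀R hk').2]
    have hδA : ∀ k ∈ A, δ k = 0 := by
      intro k hk
      show θ (c k) = 0
      rw [hcA k hk, e.one]
    have hδB : ∀ k ∈ cj g A, δ k = k • θ u - θ u := by
      intro k hk
      have hkH : k ∈ H := hG₀H (Subgroup.mem_sup_right hk)
      show θ (c k) = k • θ u - θ u
      rw [hcB k hk, e.add _ (e.inv k hkH u hu) _ (inv_mem hu), e.neg hu, e.eqv k hkH u hu, sub_eq_add_neg]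
    have hδ1 : δ 1 = 0 := hδA 1 (one_mem _)
    have hδinv : ∀ k ∈ G₀, k • δ k⁻¹ + δ k = 0 := by
      intro k hk
      rw [← hδ k hk k⁻¹ (inv_mem hk), mul_inv_cancel, hδ1]
    -- the stabilizer
    let St : Subgroup G :=
      { carrier := {k | k ∈ G₀ ∧ δ k = 0}
        one_mem' := ⟨one_mem _, hδ1⟩
        mul_mem' := by
          rintro k k' ⟨hk, hk'⟩ ⟨hl, hl'⟩
          exact ⟨mul_mem hk hl, by
            show δ (k * k') = 0
            rw [hδ k hk k' hl, hl', hk', smul_zero, add_zero]⟩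
        inv_mem' := by
          rintro k ⟨hk, hk'⟩
          refine ⟨inv_mem hk, ?_⟩
          have h1 := hδinv k hk
          rw [hk', add_zero, smul_eq_zero_iff_eq] at h1
          exact h1 }
    -- `δ` on `Q ∩ G₀`
    let N : AddSubgroup F :=
      { carrier := {v | ∃ t ∈ Q ⊓ G₀, δ t = v}
        zero_mem' := ⟨1, one_mem _, hδ1⟩
        add_mem' := by
          rintro _ _ ⟨s, hs, rfl⟩ ⟨t, ht, rfl⟩
          refine ⟨t * s, mul_mem ht hs, ?_⟩
          rw [hδ t (Subgroup.mem_inf.1 ht).2 s (Subgroup.mem_inf.1 hs).2, hQF t (Subgroup.mem_inf.1 ht).1]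
        neg_mem' := by
          rintro _ ⟨t, ht, rfl⟩
          refine ⟨t⁻¹, inv_mem ht, ?_⟩
          have h1 := hδinv t (Subgroup.mem_inf.1 ht).2
          rw [hQF t (Subgroup.mem_inf.1 ht).1] at h1
          exact eq_neg_of_add_eq_zero_left h1 }
    have hN : N = ⊥ := by
      refine (irrG₀ N ?_).resolve_right ?_
      · rintro h hh _ ⟨t, ht, rfl⟩
        have ht1 := (Subgroup.mem_inf.1 ht).1
        have ht2 := (Subgroup.mem_inf.1 ht).2
        refine ⟨h * t * h⁻¹, Subgroup.mem_inf.2 ⟨hPn.conj_mem t ht1 h, mul_mem (mul_mem hh ht2) (inv_mem hh)⟩, ?_⟩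
        rw [mul_assoc, hδ h hh _ (mul_mem ht2 (inv_mem hh)), hδ t ht2 _ (inv_mem hh), hQF t ht1, smul_add,
          add_right_comm, hδinv h hh, zero_add]
      · intro hNt
        obtain ⟨k, hk, hkM⟩ : ∃ k ∈ G₀, k ∉ M := by
          by_contra hcon
          push Not at hcon
          exact m.Mne (top_le_iff.1 (hG₀Q ▸ sup_le hcon m.QM))
        have h1 : -(k⁻¹ • δ k) ∈ N := by rw [hNt]; trivial
        obtain ⟨t, ht, hte⟩ := h1
        have ht1 := (Subgroup.mem_inf.1 ht).1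
        have ht2 := (Subgroup.mem_inf.1 ht).2
        have hkt : k * t ∈ G₀ := mul_mem hk ht2
        have hδkt : δ (k * t) = 0 := by
          rw [hδ k hk t ht2, hte, smul_neg, smul_inv_smul, neg_add_cancel]
        have hktM : k * t ∉ M := by
          intro h
          have h2 := mul_mem h (inv_mem (m.QM ht1))
          rw [mul_inv_cancel_right] at h2
          exact hkM h2
        have h2 := hgmin (k * t) hkt hktM
        have hktS : k * t ∈ St := ⟨hkt, hδkt⟩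
        have hAS : A ≤ St := fun a ha => ⟨Subgroup.mem_sup_left ha, hδA a ha⟩
        have h3 : G₀ ≤ St := by
          rw [← h2]
          refine sup_le hAS ?_
          rw [cj_le_iff]
          intro a ha
          exact mul_mem (mul_mem hktS (hAS ha)) (inv_mem hktS)
        apply hF0
        rw [← hNt, eq_bot_iff]
        rintro _ ⟨t, ht, rfl⟩
        exact AddSubgroup.mem_bot.2 (h3 (Subgroup.mem_inf.1 ht).2).2
    have hδQ : ∀ t ∈ Q, t ∈ G₀ → δ t = 0 := by
      intro t ht ht'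
      have h1 : δ t ∈ N := ⟨t, Subgroup.mem_inf.2 ⟨ht, ht'⟩, rfl⟩
      rw [hN] at h1
      exact AddSubgroup.mem_bot.1 h1
    have hSAQ : A ⊔ Q = (S : Subgroup G) := (AQ m hA hAQ).1
    have hδS : ∀ s ∈ (S : Subgroup G), s ∈ G₀ → δ s = 0 := by
      intro s hs hs'
      rw [← hSAQ] at hs
      obtain ⟨a, ha, q, hq, rfl⟩ := Subgroup.mem_sup_of_normal_right.1 hs
      have haG : a ∈ G₀ := Subgroup.mem_sup_left ha
      have hqG : q ∈ G₀ := by
        have h1 := mul_mem (inv_mem haG) hs'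
        rwa [inv_mul_cancel_left] at h1
      rw [hδ a haG q hqG, hδQ q hq hqG, hδA a ha, smul_zero, add_zero]
    -- the index
    have hindex : ¬ p ∣ ((S : Subgroup G).subgroupOf G₀).index := by
      have h1 : ((S : Subgroup G).subgroupOf G₀).index = (S : Subgroup G).index := by
        have e1 := card_sup_normal G₀ Q
        have e2 := card_sup_normal ((S : Subgroup G) ⊓ G₀) Q
        have e3 : ((S : Subgroup G) ⊓ G₀) ⊔ Q = (S : Subgroup G) := by
          apply le_antisymm (sup_le inf_le_left QS)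
          nth_rewrite 1 [← hSAQ]
          exact sup_le_sup_right (le_inf (le_sup_left.trans hSAQ.le) le_sup_left) Q
        have e4 : ((S : Subgroup G) ⊓ G₀) ⊓ Q = G₀ ⊓ Q := by
          apply le_antisymm (inf_le_inf_right _ inf_le_right)
          exact le_inf (le_inf (inf_le_right.trans QS) inf_le_left) inf_le_right
        rw [hG₀Q] at e1
        rw [e3, e4] at e2
        have e5 := ((S : Subgroup G).subgroupOf G₀).index_mul_card
        have e6 := (S : Subgroup G).index_mul_card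
        have e7 : Nat.card ((S : Subgroup G).subgroupOf G₀) = Nat.card ((S : Subgroup G) ⊓ G₀ : Subgroup G) := by
          rw [← Subgroup.subgroupOf_map_subtype]
          exact (Subgroup.card_map_of_injective G₀.subtype_injective).symm
        rw [e7] at e5
        have hpos1 : 0 < Nat.card ((S : Subgroup G) ⊓ G₀ : Subgroup G) := Nat.card_pos
        have hpos2 : 0 < Nat.card (S : Subgroup G) := Nat.card_pos
        have hpos3 : 0 < Nat.card Q := Nat.card_pos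
        have hpos4 : 0 < Nat.card (G₀ ⊓ Q : Subgroup G) := Nat.card_pos
        have e8 : Nat.card (⊤ : Subgroup G) = Nat.card G := Nat.card_congr Subgroup.topEquiv.toEquiv
        rw [e8] at e1
        -- |G|·x = |G₀|·q, |S|·x = |S∩G₀|·q
        apply Nat.eq_of_mul_eq_mul_right (Nat.mul_pos hpos1 hpos3)
        calc ((S : Subgroup G).subgroupOf G₀).index * (Nat.card ((S : Subgroup G) ⊓ G₀ : Subgroup G) * Nat.card Q) =
            (((S : Subgroup G).subgroupOf G₀).index * Nat.card ((S : Subgroup G) ⊓ G₀ : Subgroup G)) * Nat.card Q := by ring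
          _ = Nat.card G₀ * Nat.card Q := by rw [e5]
          _ = Nat.card G * Nat.card (G₀ ⊓ Q : Subgroup G) := e1.symm
          _ = (S : Subgroup G).index * (Nat.card (S : Subgroup G) * Nat.card (G₀ ⊓ Q : Subgroup G)) := by rw [← e6]; ring
          _ = (S : Subgroup G).index * (Nat.card ((S : Subgroup G) ⊓ G₀ : Subgroup G) * Nat.card Q) := by rw [e2]
      rw [h1]
      exact S.not_dvd_index
    obtain ⟨f, hf⟩ := cocycle_avg (X := G₀) hp.out pF (fun x => δ x)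
      (fun x y => hδ x x.2 y y.2) ((S : Subgroup G).subgroupOf G₀)
      (fun t ht => hδS t (Subgroup.mem_subgroupOf.1 ht) t.2) hindex
    have hfA : f ∈ fx F A := by
      intro a ha
      have h1 := hf ⟨a, Subgroup.mem_sup_left ha⟩
      have h2 : a • f = f - δ a := h1
      rw [h2, hδA a ha, sub_zero]
    have hfB : f + θ u ∈ fx F (cj g A) := by
      intro b hb
      have h1 := hf ⟨b, Subgroup.mem_sup_right hb⟩
      have h2 : b • f = f - δ b := h1
      rw [smul_add, h2, hδB b hb]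
      abel
    have h1 : θ u = -f + (f + θ u) := by abel
    rw [h1]
    exact add_mem (AddSubgroup.mem_sup_left (neg_mem hfA)) (AddSubgroup.mem_sup_right hfB)
  have htop : fx F A ⊔ fx F (cj g A) = ⊤ := by
    rw [eq_top_iff]
    intro v _
    obtain ⟨u, hu, rfl⟩ := e.surj irrH v
    exact key u hu
  have hfS : fx F A = fx F (S : Subgroup G) := by
    rw [← (AQ m hA hAQ).1, fx_sup]
    refine (inf_eq_left.2 ?_).symm
    intro v _ q hq
    exact hQF q hq v
  have h1 := card_sup_inf (fx F A) (fx F (cj g A))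
  rw [htop, card_top, card_fx_cj, hfS] at h1
  have h2 : 0 < Nat.card (fx F (S : Subgroup G) ⊓ fx F (cj g A) : AddSubgroup F) := card_pos _
  have h3 : Nat.card F ≤ Nat.card (fx F (S : Subgroup G)) * Nat.card (fx F (S : Subgroup G)) := by
    rw [← h1]
    exact Nat.le_mul_of_pos_right _ h2
  have h4 : Nat.card (fx F (S : Subgroup G)) * Nat.card (fx F (S : Subgroup G)) ≤ p ^ 2 := by
    rw [pow_two]; exact Nat.mul_le_mul hSF hSF
  omega

end Cfsg.Agent.H215.RO
end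

-- part: H215/Ctrl
section
/-!
# Control of transfer by the normalizers of `Z(S)` and `K(S)`, `p` odd
-/

set_option autoImplicit false
set_option linter.unusedSectionVars false
set_option linter.unusedVariables false

open Cfsg

namespace Cfsg.Agent.H215.Ctrl

open Cfsg.Agent.H39 Cfsg.Agent.H215.Fun Cfsg.Agent.H215.Setup Cfsg.Agent.H215.Setup.Min
open scoped commutatorElement

universe u

/-! ### the functors -/

/-- the centre -/
def ZF : Fn.{u} := fun Q _ => Zs (⊤ : Subgroup Q)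

/-- the functor `K` -/
noncomputable def KF : Fn.{u} := fun Q _ => K (⊤ : Subgroup Q)

section

variable {X : Type u} [Group X] [Finite X]

theorem induced_ZF (P : Subgroup X) : inducedFunctor (G := X) ZF P = Zs P := by
  show (Zs (⊤ : Subgroup P)).map P.subtype = Zs P
  rw [← Zs_map _ P.subtype_injective, top_map_subtype]

theorem induced_KF (P : Subgroup X) : inducedFunctor (G := X) KF P = K P := by
  show (K (⊤ : Subgroup P)).map P.subtype = K P
  rw [← K_map _ P.subtype_injective, top_map_subtype]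

variable {p : ℕ} [hp : Fact p.Prime]

theorem charZF : IsCharPFunctor.{u} p ZF := by
  constructor
  · intro Q _ _ hQ hnt h
    have h1 : Nontrivial (Subgroup.center Q) := hQ.center_nontrivial
    apply (Subgroup.nontrivial_iff_ne_bot _).1 h1
    rw [eq_bot_iff]
    intro x hx
    have h2 : x ∈ Zs (⊤ : Subgroup Q) := mem_Zs.2 ⟨trivial, fun y _ => Subgroup.mem_center_iff.1 hx y⟩
    have h3 : x ∈ (⊥ : Subgroup Q) := by
      have h4 : Zs (⊤ : Subgroup Q) = ⊥ := h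
      rw [← h4]; exact h2
    exact h3
  · intro Q R _ _ _ hQ φ
    show (Zs (⊤ : Subgroup Q)).map φ.toMonoidHom = Zs (⊤ : Subgroup R)
    rw [← Zs_map _ (show Function.Injective φ.toMonoidHom from φ.injective),
      Subgroup.map_top_of_surjective _ (show Function.Surjective φ.toMonoidHom from φ.surjective)]

theorem charKF : IsCharPFunctor.{u} p KF := by
  constructor
  · intro Q _ _ hQ hnt h
    exact K_ne_bot (P := (⊤ : Subgroup Q)) top_ne_bot h
  · intro Q R _ _ _ hQ φ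
    show (K (⊤ : Subgroup Q)).map φ.toMonoidHom = K (⊤ : Subgroup R)
    rw [← K_map _ (show Function.Injective φ.toMonoidHom from φ.injective),
      Subgroup.map_top_of_surjective _ (show Function.Surjective φ.toMonoidHom from φ.surjective)]

theorem hW : ∀ W ∈ ({ZF, KF} : Set Fn.{u}), IsCharPFunctor.{u} p W := by
  rintro W (rfl | rfl)
  · exact charZF
  · exact charKF

end

/-! ### the focal subgroup -/

section focal

theorem focal_top {X : Type*} [Group X] [Finite X] {p : ℕ} [hp : Fact p.Prime] (P : Sylow p X) {C T : Subgroup X}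
    [hC : C.Normal] (hPC : (P : Subgroup X) ≤ C) (h1 : (P : Subgroup X) ⊓ ⁅C, C⁆ ≤ T)
    (h2 : (P : Subgroup X) ⊓ ⁅Subgroup.normalizer ((P : Subgroup X) : Set X), Subgroup.normalizer ((P : Subgroup X) : Set X)⁆ ≤ T) :
    (P : Subgroup X) ⊓ ⁅(⊤ : Subgroup X), ⊤⁆ ≤ T := by
  have h3 : (P : Subgroup X) ⊓ ⁅(⊤ : Subgroup X), ⊤⁆ = (P : Subgroup X).focalSubgroup := by
    rw [← Subgroup.commutator_inf_eq_focalSubgroup P, inf_comm]; rfl
  rw [h3, Subgroup.focalSubgroup_def, Subgroup.closure_le]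
  rintro _ ⟨hg, x, hx, u, rfl⟩
  -- `u = n l`
  have hcase : ∃ n ∈ Subgroup.normalizer ((P : Subgroup X) : Set X), ∃ l ∈ C, u = n * l := by
    have hLp : IsPGroup p (P : Subgroup X) := P.isPGroup'
    have hLi : ¬ p ∣ ((P : Subgroup X)).relIndex C := fun h =>
      P.not_dvd_index (h.trans (Subgroup.relIndex_dvd_index_of_le hPC))
    have hmapL : ((P : Subgroup X)).map (MulAut.conj u⁻¹).toMonoidHom ≤ C := by
      rintro _ ⟨y, hy, rfl⟩
      exact hC.conj_mem y (hPC hy) u⁻¹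
    obtain ⟨l, hl, hle⟩ := Cfsg.Agent.Lib.GoldschmidtFusion.exists_conj_le_in (p := p) hLp hLi hmapL (hLp.map _)
    rw [Cfsg.Agent.Lib.GoldschmidtFusion.map_conj_map_conj] at hle
    have hlx : l * u⁻¹ ∈ Subgroup.normalizer ((P : Subgroup X) : Set X) :=
      Cfsg.Agent.Lib.GoldschmidtFusion.mem_normalizer_iff_map_conj.2
        (Cfsg.Agent.Lib.GoldschmidtFusion.map_conj_le_of_le_normalizer hle)
    exact ⟨(l * u⁻¹)⁻¹, inv_mem hlx, l, hl, by group⟩
  obtain ⟨n, hn, l, hl, rfl⟩ := hcase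
  set y := l * x * l⁻¹ with hy
  have hny : n * y⁻¹ * n⁻¹ ∈ (P : Subgroup X) := by
    have h4 := mul_mem (inv_mem hx) hg
    have h5 : x⁻¹ * ⁅x, n * l⁆ = n * y⁻¹ * n⁻¹ := by rw [commutatorElement_def, hy]; group
    rwa [h5] at h4
  have hyP : y ∈ (P : Subgroup X) := by
    have h4 := (Subgroup.mem_normalizer_iff.1 hn y⁻¹).2 hny
    have h5 := inv_mem h4
    rwa [inv_inv] at h5
  have h6 : ⁅x, n * l⁆ = (x * y⁻¹) * ⁅y, n⁆ := by rw [commutatorElement_def, commutatorElement_def, hy]; group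
  have h7 : x * y⁻¹ = ⁅x, l⁆ := by rw [commutatorElement_def, hy]; group
  rw [h6]
  refine mul_mem (h1 (Subgroup.mem_inf.2 ⟨mul_mem hx (inv_mem hyP), ?_⟩)) (h2 (Subgroup.mem_inf.2 ⟨?_, ?_⟩))
  · rw [h7]; exact Subgroup.commutator_mem_commutator (hPC hx) hl
  · have h8 : ⁅y, n⁆ = y * (n * y⁻¹ * n⁻¹) := by rw [commutatorElement_def]; group
    rw [h8]; exact mul_mem hyP hny
  · exact Subgroup.commutator_mem_commutator (Subgroup.le_normalizer hyP) hn

/-- `P ∩ L' ≤ ⟨P ∩ C', P ∩ N_L(P)'⟩` if `P ≤ C ⊴ L`. -/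
theorem focal_split {G : Type*} [Group G] [Finite G] {p : ℕ} [hp : Fact p.Prime] {P C L T : Subgroup G}
    (hP : IsPGroup p P) (hi : ¬ p ∣ P.relIndex L) (hPC : P ≤ C) (hCL : C ≤ L)
    (hC : ∀ l ∈ L, ∀ c ∈ C, l * c * l⁻¹ ∈ C) (h1 : P ⊓ ⁅C, C⁆ ≤ T)
    (h2 : P ⊓ ⁅L ⊓ Subgroup.normalizer (P : Set G), L ⊓ Subgroup.normalizer (P : Set G)⁆ ≤ T) :
    P ⊓ ⁅L, L⁆ ≤ T := by
  have hPL : P ≤ L := hPC.trans hCL
  have hP' : IsPGroup p (P.subgroupOf L) := hP.comap_of_injective L.subtype L.subtype_injective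
  have hCn : (C.subgroupOf L).Normal := by
    constructor
    intro c hc l
    rw [Subgroup.mem_subgroupOf] at hc ⊢
    exact hC l l.2 c hc
  have hmap : ∀ {K : Subgroup G}, K ≤ L → (K.subgroupOf L).map L.subtype = K := by
    intro K hK
    rw [Subgroup.subgroupOf_map_subtype, inf_eq_left.2 hK]
  have key := focal_top (hP'.toSylow hi) (C := C.subgroupOf L) (T := T.subgroupOf L) (by
      intro x hx
      have hx' : x ∈ P.subgroupOf L := hx
      rw [Subgroup.mem_subgroupOf] at hx' ⊢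
      exact hPC hx') (by
      intro x hx
      obtain ⟨hx1, hx2⟩ := Subgroup.mem_inf.1 hx
      have hx1' : x ∈ P.subgroupOf L := hx1
      rw [Subgroup.mem_subgroupOf] at hx1' ⊢
      apply h1
      refine Subgroup.mem_inf.2 ⟨hx1', ?_⟩
      have h3 : (x : G) ∈ (⁅C.subgroupOf L, C.subgroupOf L⁆).map L.subtype := ⟨x, hx2, rfl⟩
      rwa [Subgroup.map_commutator, hmap hCL] at h3) (by
      intro x hx
      obtain ⟨hx1, hx2⟩ := Subgroup.mem_inf.1 hx
      have hx1' : x ∈ P.subgroupOf L := hx1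
      rw [Subgroup.mem_subgroupOf] at hx1' ⊢
      apply h2
      refine Subgroup.mem_inf.2 ⟨hx1', ?_⟩
      have h3 := Subgroup.mem_map_of_mem L.subtype hx2
      rw [Subgroup.map_commutator] at h3
      refine Subgroup.commutator_mono ?_ ?_ h3 <;>
      · rintro _ ⟨n, hn, rfl⟩
        refine Subgroup.mem_inf.2 ⟨n.2, ?_⟩
        rw [Subgroup.mem_normalizer_iff]
        have hn' : n ∈ Subgroup.normalizer ((P.subgroupOf L : Subgroup L) : Set L) := hn
        intro y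
        constructor
        · intro hy
          have h4 := (Subgroup.mem_normalizer_iff.1 hn' ⟨y, hPL hy⟩).1 hy
          exact h4
        · intro hy
          have hyL : y ∈ L := by
            have h5 := hPL hy
            have h6 := mul_mem (mul_mem (inv_mem n.2) h5) n.2
            have h7 : (n : G)⁻¹ * (L.subtype n * y * (L.subtype n)⁻¹) * (n : G) = y := by
              show (n : G)⁻¹ * ((n : G) * y * (n : G)⁻¹) * (n : G) = y
              group
            rwa [h7] at h6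
          exact (Subgroup.mem_normalizer_iff.1 hn' ⟨y, hyL⟩).2 hy)
  intro x hx
  obtain ⟨hx1, hx2⟩ := Subgroup.mem_inf.1 hx
  have h3 : (⟨x, hPL hx1⟩ : L) ∈ T.subgroupOf L := by
    apply key
    refine Subgroup.mem_inf.2 ⟨hx1, ?_⟩
    have h4 : x ∈ (⁅(⊤ : Subgroup L), (⊤ : Subgroup L)⁆).map L.subtype := by
      rw [Subgroup.map_commutator, ← MonoidHom.range_eq_map, L.range_subtype]; exact hx2
    obtain ⟨y, hy, hyx⟩ := h4
    have h5 : y = ⟨x, hPL hx1⟩ := Subtype.ext hyx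
    rwa [← h5]
  exact h3

end focal

/-! ### control of transfer -/

section main

variable {p : ℕ} [hp : Fact p.Prime]

theorem ZS_cent {G : Type*} [Group G] {P : Subgroup G} : P ≤ Subgroup.centralizer (Zs P : Set G) := by
  intro x hx
  rw [Subgroup.mem_centralizer_iff]
  exact fun z hz => ((mem_Zs.1 hz).2 x hx).symm

theorem cent_conj {G : Type*} [Group G] {Z : Subgroup G} {l c : G} (hl : l ∈ Subgroup.normalizer (Z : Set G))
    (hc : c ∈ Subgroup.centralizer (Z : Set G)) : l * c * l⁻¹ ∈ Subgroup.centralizer (Z : Set G) := by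
  rw [Subgroup.mem_centralizer_iff] at hc ⊢
  intro z hz
  have h1 : l⁻¹ * z * l ∈ Z := by
    have h2 := (Subgroup.mem_normalizer_iff.1 (inv_mem hl) z).1 hz
    rwa [inv_inv] at h2
  have h3 := hc _ h1
  calc z * (l * c * l⁻¹) = l * ((l⁻¹ * z * l) * c) * l⁻¹ := by group
    _ = l * (c * (l⁻¹ * z * l)) * l⁻¹ := by rw [h3]
    _ = _ := by group

theorem cent_le_normalizer {G : Type*} [Group G] {Z : Subgroup G} :
    Subgroup.centralizer (Z : Set G) ≤ Subgroup.normalizer (Z : Set G) := by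
  intro c hc
  rw [Subgroup.mem_centralizer_iff] at hc
  rw [Subgroup.mem_normalizer_iff]
  intro z
  constructor
  · intro hz
    rw [← hc z hz, mul_inv_cancel_right]; exact hz
  · intro hz
    have h1 := hc _ hz
    have h2 : z = c * z * c⁻¹ := by
      calc z = c⁻¹ * ((c * z * c⁻¹) * c) := by group
        _ = c⁻¹ * (c * (c * z * c⁻¹)) := by rw [h1]
        _ = _ := by group
    rw [h2]; exact hz

/-- **control of transfer** by the normalizers of `Z(S)` and `K(S)` -/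
theorem ft (hp2 : p ≠ 2) : ∀ (n : ℕ) (G : Type u) [Group G] [Finite G], Nat.card G = n → FT p {ZF, KF} G := by
  intro n
  induction n using Nat.strong_induction_on with
  | _ n ih =>
  intro G _ _ hn
  by_contra hG
  obtain ⟨S⟩ : Nonempty (Sylow p G) := inferInstance
  have hprop : ∀ (X : Type u) [Group X] [Finite X], IsSec G X → Nat.card X < Nat.card G → FT p {ZF, KF} X :=
    fun X _ _ _ hlt => ih (Nat.card X) (by omega) X rfl
  have hZF : (ZF : Fn.{u}) ∈ ({ZF, KF} : Set Fn.{u}) := Or.inl rfl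
  have hKF : (KF : Fn.{u}) ∈ ({ZF, KF} : Set Fn.{u}) := Or.inr rfl
  have hQn := Qn (p := p) (G := G)
  obtain ⟨T, hT⟩ : ∃ T, T = focalI {ZF, KF} (S : Subgroup G) ⊤ := ⟨_, rfl⟩
  obtain ⟨M, hM⟩ : ∃ M, M = Subgroup.normalizer ((T ⊓ pCore p G : Subgroup G) : Set G) := ⟨_, rfl⟩
  obtain ⟨hcon, ⟨hMne, hmax⟩, ⟨hQM1, hQM2⟩, -⟩ := minimal_failure hW ⟨_, hZF⟩ hprop hG S hT hM
  have hTZ : (S : Subgroup G) ⊓ ⁅Subgroup.normalizer (Zs (S : Subgroup G) : Set G),
      Subgroup.normalizer (Zs (S : Subgroup G) : Set G)⁆ ≤ T := by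
    rw [hT]
    have h1 := le_focalI (T := (S : Subgroup G)) (H := ⊤) hZF
    rwa [induced_ZF, top_inf_eq] at h1
  have hTK : (S : Subgroup G) ⊓ ⁅Subgroup.normalizer (K (S : Subgroup G) : Set G),
      Subgroup.normalizer (K (S : Subgroup G) : Set G)⁆ ≤ T := by
    rw [hT]
    have h1 := le_focalI (T := (S : Subgroup G)) (H := ⊤) hKF
    rwa [induced_KF, top_inf_eq] at h1
  -- `[Q, X] ≤ T` gives `X ≤ M`
  have hleM : ∀ X : Subgroup G, ⁅pCore p G, X⁆ ≤ T → X ≤ M := by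
    intro X hX x hx
    rw [hM]
    have h1 : ∀ x ∈ X, ∀ t ∈ T ⊓ pCore p G, x * t * x⁻¹ ∈ T ⊓ pCore p G := by
      intro x hx t ht
      obtain ⟨ht1, ht2⟩ := Subgroup.mem_inf.1 ht
      refine Subgroup.mem_inf.2 ⟨?_, hQn.conj_mem t ht2 x⟩
      have h2 : ⁅t, x⁆ ∈ T := hX (Subgroup.commutator_mem_commutator ht2 hx)
      have h3 := mul_mem (inv_mem h2) ht1
      have h4 : ⁅t, x⁆⁻¹ * t = x * t * x⁻¹ := by rw [commutatorElement_def]; group
      rwa [h4] at h3
    rw [Subgroup.mem_normalizer_iff]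
    intro t
    refine ⟨fun ht => h1 x hx t ht, fun ht => ?_⟩
    have h2 := h1 x⁻¹ (inv_mem hx) _ ht
    rwa [show x⁻¹ * (x * t * x⁻¹) * x⁻¹⁻¹ = t by group] at h2
  have m : Min p S M :=
    { p2 := hp2
      con := hcon
      Mne := hMne
      max := hmax
      bad := by
        intro h
        apply hMne
        rw [eq_top_iff]
        refine hleM ⊤ (h.trans (hQM1.trans (hQM2.trans inf_le_right)))
      Zn := by
        intro h
        exact hG (ft_of_normal hW S hZF (by rw [induced_ZF]; exact h))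
      Kn := by
        intro h
        exact hG (ft_of_normal hW S hKF (by rw [induced_KF]; exact h))
      nrm := by
        intro N hN hNne hQN hJN
        apply hleM
        set P : Subgroup G := (S : Subgroup G) ⊓ N with hP
        have hPS : P ≤ S := inf_le_left
        have hPN : P ≤ N := inf_le_right
        have hPp : IsPGroup p P := S.isPGroup'.to_le hPS
        have hPi : ¬ p ∣ P.relIndex N := by
          rw [hP, Subgroup.inf_relIndex_right]
          exact fun h => S.not_dvd_index (h.trans (Cfsg.Agent.Lib.GoldschmidtFusion.relIndex_dvd_index_of_normal_right _ _))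
        have hKP : K P = K (S : Subgroup G) := K_eq_of_le hPS (le_inf Jt_le hJN)
        have hZ : Zs (S : Subgroup G) ≤ Zs P := by
          intro z hz
          have hz1 := mem_Zs.1 hz
          have hzQ : z ∈ pCore p G := by
            apply hcon
            rw [Subgroup.mem_centralizer_iff]
            exact fun y hy => hz1.2 y (QS hy)
          exact mem_Zs.2 ⟨Subgroup.mem_inf.2 ⟨hz1.1, hQN hzQ⟩, fun y hy => hz1.2 y (hPS hy)⟩
        have hft : FT p {ZF, KF} N := hprop N (IsSec.subgroup N)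
          (lt_of_le_of_ne (Subgroup.card_le_card_group N) (fun h => hNne (Subgroup.eq_top_of_card_eq N h)))
        have h1 := hft.subgroup hW hPN hPp hPi
        have h2 : focalI {ZF, KF} P N ≤ T := by
          refine iSup₂_le ?_
          rintro W (rfl | rfl)
          · rw [induced_ZF]
            refine focal_split (p := p) (C := (N ⊓ Subgroup.normalizer (Zs P : Set G)) ⊓ Subgroup.centralizer (Zs P : Set G))
              hPp ?_ ?_ inf_le_left ?_ ?_ ?_
            · intro h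
              exact hPi (h.trans ⟨_, (Subgroup.relIndex_mul_relIndex P _ N (le_inf hPN (ZS_cent.trans cent_le_normalizer)) inf_le_left).symm⟩)
            · exact le_inf (le_inf hPN (ZS_cent.trans cent_le_normalizer)) ZS_cent
            · intro l hl c hc
              obtain ⟨hc1, hc2⟩ := Subgroup.mem_inf.1 hc
              exact Subgroup.mem_inf.2 ⟨mul_mem (mul_mem hl hc1) (inv_mem hl), cent_conj (Subgroup.mem_inf.1 hl).2 hc2⟩
            · refine le_trans (inf_le_inf hPS ?_) hTZ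
              have h3 : (N ⊓ Subgroup.normalizer (Zs P : Set G)) ⊓ Subgroup.centralizer (Zs P : Set G) ≤
                  Subgroup.normalizer (Zs (S : Subgroup G) : Set G) := by
                refine inf_le_right.trans (le_trans ?_ cent_le_normalizer)
                exact Subgroup.centralizer_le hZ
              exact Subgroup.commutator_mono h3 h3
            · refine le_trans (inf_le_inf hPS ?_) hTK
              have h3 : (N ⊓ Subgroup.normalizer (Zs P : Set G)) ⊓ Subgroup.normalizer (P : Set G) ≤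
                  Subgroup.normalizer (K (S : Subgroup G) : Set G) := by
                rw [← hKP]
                exact inf_le_right.trans normalizer_le_K
              exact Subgroup.commutator_mono h3 h3
          · rw [induced_KF, hKP]
            refine le_trans (inf_le_inf hPS ?_) hTK
            exact Subgroup.commutator_mono inf_le_right inf_le_right
        have h3 : ⁅pCore p G, N⁆ ≤ P ⊓ ⁅N, N⁆ := by
          refine le_inf (le_inf ((Subgroup.commutator_le_left _ _).trans QS) ((Subgroup.commutator_mono hQN le_rfl).trans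
            (Subgroup.commutator_le_left _ _))) (Subgroup.commutator_mono hQN le_rfl)
        exact h3.trans (h1.trans h2) }
  exact Cfsg.Agent.H215.RO.false_of_min m

end main

end Cfsg.Agent.H215.Ctrl
end
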